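import Mathlib

/-!
# Reduction from a subring of the complex numbers onto a field
-/

set_option autoImplicit false
set_option linter.unusedSectionVars false

namespace CfsgLib.Blocks.CyclicRankOne

variable {k : Type*} [Field k] (R : Subring ℂ) (q : R →+* k) (hqs : Function.Surjective q)
include hqs

/-- Functions with independent reductions are independent. -/
theorem linearIndependent_of_res {ι I : Type*} [Fintype ι] [Fintype I]
    (W : ι → I → R) (h : LinearIndependent k fun i x => q (W i x)) :
    LinearIndependent ℂ fun i x => (W i x : ℂ) := by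
  classical
  obtain ⟨φ, hφ⟩ := LinearMap.exists_leftInverse_of_injective
    (Fintype.linearCombination k fun i x => q (W i x))
    (LinearMap.ker_eq_bot.2 (linearIndependent_iff_injective_fintypeLinearCombination.1 h))
  choose lam hlam using fun (i : ι) (x : I) => hqs
    (φ (Pi.single x 1) i)
  set L : Matrix ι I R := Matrix.of lam with hL
  set V : Matrix I ι R := Matrix.of fun x i => W i x with hV
  have hred : (L * V).map q = 1 := by
    ext i j
    have h1 := congrFun (LinearMap.congr_fun hφ (Pi.single j 1)) i
    rw [LinearMap.comp_apply, Fintype.linearCombination_apply_single, one_smul, LinearMap.id_apply,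
      LinearMap.pi_apply_eq_sum_univ φ] at h1
    simp only [Finset.sum_apply, Pi.smul_apply, smul_eq_mul, Pi.single_apply] at h1
    rw [Matrix.map_apply, Matrix.one_apply, Matrix.mul_apply, map_sum, ← h1]
    refine Finset.sum_congr rfl fun x _ => ?_
    rw [hL, hV, Matrix.of_apply, Matrix.of_apply, map_mul, hlam, mul_comm,
      show (Pi.single x 1 : I → k) = fun y => if x = y then 1 else 0 from
        funext fun y => by simp [Pi.single_apply, eq_comm]]
  have hdet : (R.subtype.mapMatrix (L * V)).det ≠ 0 := by
    rw [← RingHom.map_det]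
    intro h0
    have h1 : q (L * V).det = 1 := by
      rw [RingHom.map_det, RingHom.mapMatrix_apply, hred, Matrix.det_one]
    have h2 : (L * V).det = 0 := Subtype.ext h0
    rw [h2, map_zero] at h1
    exact zero_ne_one h1
  rw [Fintype.linearIndependent_iff]
  intro c hc
  refine congrFun (Matrix.eq_zero_of_mulVec_eq_zero hdet ?_)
  rw [RingHom.mapMatrix_apply, Matrix.map_mul, ← Matrix.mulVec_mulVec]
  rw [show (V.map R.subtype).mulVec c = 0 from ?_, Matrix.mulVec_zero]
  funext x
  have := congrFun hc x
  simp only [Finset.sum_apply, Pi.smul_apply, smul_eq_mul, Pi.zero_apply] at this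
  rw [Pi.zero_apply, ← this, Matrix.mulVec, dotProduct]
  exact Finset.sum_congr rfl fun i _ => mul_comm _ _

theorem rank_map_le {I J : Type*} [Fintype I] [Fintype J] (P : Matrix I J R) :
    (P.map q).rank
      ≤ (P.map R.subtype).rank := by
  classical
  rw [Matrix.rank_eq_finrank_span_cols, Matrix.rank_eq_finrank_span_cols]
  obtain ⟨κ, a, ha, hspan, hli⟩ :=
    exists_linearIndependent' k (P.map q).col
  haveI : Finite κ := Finite.of_injective a ha
  haveI := Fintype.ofFinite κ
  rw [← hspan, finrank_span_eq_card hli]
  have h := linearIndependent_of_res R q hqs (fun i x => P x (a i)) hli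
  rw [← finrank_span_eq_card h]
  refine Submodule.finrank_mono (Submodule.span_mono ?_)
  rintro _ ⟨i, rfl⟩
  exact ⟨a i, rfl⟩

/-- The reduction of an idempotent matrix has rank its trace. -/
theorem rank_map_of_idem {I : Type*} [Fintype I] [DecidableEq I]
    (P : Matrix I I R) (hP : P * P = P) :
    ((P.map q).rank : ℂ)
      = (P.trace : ℂ) := by
  classical
  set s := R.subtype with hs
  have hrk : ∀ R : Matrix I I ℂ, R * R = R → (R.rank : ℂ) = R.trace := by
    intro R hR
    have h := LinearMap.IsProj.trace (f := Matrix.toLin' R) (p := LinearMap.range (Matrix.toLin' R))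
      ⟨fun v => LinearMap.mem_range_self _ v, by
        rintro _ ⟨v, rfl⟩
        rw [← LinearMap.comp_apply, ← Matrix.toLin'_mul, hR]⟩
    rw [Matrix.trace_toLin'_eq] at h
    rw [h]
    rfl
  have hQ : (1 - P) * (1 - P) = 1 - P := by simp [mul_sub, sub_mul, hP]
  have h1 := rank_map_le R q hqs P
  have h2 := rank_map_le R q hqs (1 - P)
  simp only [← hs] at h1 h2
  have hsum : (P.map s).rank + ((1 - P).map s).rank = Fintype.card I := by
    have a := hrk (P.map s) (by rw [← Matrix.map_mul, hP])
    have b := hrk ((1 - P).map s) (by rw [← Matrix.map_mul, hQ])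
    have : (((P.map s).rank + ((1 - P).map s).rank : ℕ) : ℂ) = (Fintype.card I : ℕ) := by
      rw [Nat.cast_add, a, b, ← Matrix.trace_add, ← Matrix.map_add _ (map_add s), add_sub_cancel,
        Matrix.map_one _ (map_zero s) (map_one s), Matrix.trace_one]
    exact_mod_cast this
  have hsum' : Fintype.card I ≤ (P.map q).rank + ((1 - P).map q).rank := by
    have e : P.map q + (1 - P).map q = 1 := by
      rw [← Matrix.map_add _ (map_add q), add_sub_cancel, Matrix.map_one _ (map_zero q) (map_one q)]
    rw [← Matrix.rank_one (n := I) (R := k), ← e]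
    rw [Matrix.rank, Matrix.rank, Matrix.rank, Matrix.mulVecLin_add]
    refine le_trans (Submodule.finrank_mono ?_) (Submodule.finrank_add_le_finrank_add_finrank _ _)
    rintro _ ⟨v, rfl⟩
    exact Submodule.add_mem_sup (LinearMap.mem_range_self _ v) (LinearMap.mem_range_self _ v)
  have he : (P.map q).rank = (P.map s).rank := by omega
  rw [he, hrk _ (by rw [← Matrix.map_mul, hP])]
  simp [Matrix.trace, hs]

end CfsgLib.Blocks.CyclicRankOne
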