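import Mathlib
import Cfsg.Agent.Blocks.TwoChar.Algebra

/-!
# A summand with one simple module is a matrix algebra over its corner
-/

set_option autoImplicit false
set_option linter.unusedSectionVars false
set_option linter.style.haveILetI false

namespace CfsgLib.Blocks.CyclicRankOne

open Module

variable {k A : Type*} [Field k] [Ring A] [Algebra k A]

/-- Matrix units in the summand of `e` over the corner of an idempotent with a one-dimensional image. -/
structure Corner (k : Type*) [Field k] {A : Type*} [Ring A] [Algebra k A] (e : A) where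
  /-- the size -/
  n : ℕ
  hn : 0 < n
  /-- the idempotent -/
  f : A
  /-- the first column -/
  u : Fin n → A
  /-- the first row -/
  v : Fin n → A
  /-- the simple representation -/
  ρ : A →ₐ[k] Matrix (Fin n) (Fin n) k
  idem : f * f = f
  ef : e * f = f
  fe : f * e = f
  eu : ∀ i, e * u i = u i
  uf : ∀ i, u i * f = u i
  fv : ∀ i, f * v i = v i
  ve : ∀ i, v i * e = v i
  sum_eq : ∑ i, u i * v i = e
  unit : ∀ i j, v i * u j = if i = j then f else 0
  ρe : ρ e = 1
  ρf : ρ f ≠ 0
  dec : ∀ z, f * z * f = z → ∃ c : k, ρ (z - c • f) = 0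
  /-- the exponent of the radical -/
  N : ℕ
  nil : (LinearMap.range (LinearMap.mulLeft k f ∘ₗ LinearMap.mulRight k f) ⊓ LinearMap.ker ρ.toLinearMap) ^ (N + 1) = ⊥
  ker_nil : ∀ x, e * x = x → ρ x = 0 → x ^ (N + 1) = 0

namespace Corner

variable {e : A} (S : Corner k e)

/-- The corner. -/
def C : Submodule k A := LinearMap.range (LinearMap.mulLeft k S.f ∘ₗ LinearMap.mulRight k S.f)

/-- The radical of the corner. -/
def J : Submodule k A := S.C ⊓ LinearMap.ker S.ρ.toLinearMap

theorem mem_C {z : A} : z ∈ S.C ↔ S.f * z * S.f = z := by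
  constructor
  · rintro ⟨z, rfl⟩
    simp only [LinearMap.comp_apply, LinearMap.mulLeft_apply, LinearMap.mulRight_apply]
    rw [← mul_assoc S.f z, ← mul_assoc, ← mul_assoc, S.idem, mul_assoc (S.f * z), S.idem]
  · intro h
    exact ⟨z, by simp only [LinearMap.comp_apply, LinearMap.mulLeft_apply, LinearMap.mulRight_apply, ← mul_assoc, h]⟩

theorem mem_J {z : A} : z ∈ S.J ↔ S.f * z * S.f = z ∧ S.ρ z = 0 := by
  simp only [J, Submodule.mem_inf, S.mem_C, LinearMap.mem_ker]; rfl

theorem f_mul {z : A} (h : S.f * z * S.f = z) : S.f * z = z := by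
  rw [← h, ← mul_assoc, ← mul_assoc, S.idem]

theorem mul_f {z : A} (h : S.f * z * S.f = z) : z * S.f = z := by
  rw [← h, mul_assoc, S.idem]

theorem f_not_mem_J : S.f ∉ S.J := fun h => S.ρf (S.mem_J.1 h).2

theorem nilJ : S.J ^ (S.N + 1) = ⊥ := S.nil

theorem J_mul_J : S.J * S.J ≤ S.J := Submodule.mul_le.2 fun p hp q hq => by
  obtain ⟨p1, p2⟩ := S.mem_J.1 hp
  obtain ⟨q1, -⟩ := S.mem_J.1 hq
  refine S.mem_J.2 ⟨?_, by rw [map_mul, p2, zero_mul]⟩
  rw [← mul_assoc, S.f_mul p1, mul_assoc, S.mul_f q1]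

theorem dec' {z : A} (h : S.f * z * S.f = z) : ∃ c : k, z - c • S.f ∈ S.J := by
  obtain ⟨c, hc⟩ := S.dec z h
  refine ⟨c, S.mem_J.2 ⟨?_, hc⟩⟩
  rw [mul_sub, sub_mul, mul_smul_comm, smul_mul_assoc, S.idem, S.idem, h]

theorem cor (z : A) (i j : Fin S.n) : S.f * (S.v i * z * S.u j) * S.f = S.v i * z * S.u j := by
  rw [mul_assoc (S.f), mul_assoc (S.v i * z), S.uf, ← mul_assoc, ← mul_assoc, S.fv]

theorem C_eq : S.C = Submodule.span k {S.f} ⊔ S.J := by
  refine le_antisymm (fun z hz => ?_) (sup_le ?_ inf_le_left)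
  · obtain ⟨c, hc⟩ := S.dec' (S.mem_C.1 hz)
    exact Submodule.mem_sup.2 ⟨c • S.f, Submodule.smul_mem _ _ (Submodule.mem_span_singleton_self _), _, hc,
      add_sub_cancel _ _⟩
  · rw [Submodule.span_singleton_le_iff_mem]
    exact S.mem_C.2 (by rw [S.idem, S.idem])

/-- A generator of the radical modulo its square makes the corner commutative. -/
theorem comm_of_gen {g : A} (hg : g ∈ S.J) (hJg : S.J ≤ Submodule.span k {g} ⊔ S.J * S.J) :
    ∀ p, S.f * p * S.f = p → ∀ q, S.f * q * S.f = q → p * q = q * p := by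
  let P : Submodule k A := S.J ⊓ Subalgebra.toSubmodule (Algebra.adjoin k ({g} : Set A))
  have hPP : P * P ≤ P := Submodule.mul_le.2 fun p hp q hq =>
    ⟨S.J_mul_J (Submodule.mul_mem_mul hp.1 hq.1), (Algebra.adjoin k ({g} : Set A)).mul_mem hp.2 hq.2⟩
  have hPJ : P ≤ S.J := inf_le_left
  have hJpow : ∀ m : ℕ, S.J ^ (m + 1) ≤ S.J := by
    intro m
    induction m with
    | zero => rw [zero_add, pow_one]
    | succ m ih' => rw [pow_succ]; exact (mul_le_mul' ih' le_rfl).trans S.J_mul_J
  have hJP : ∀ m : ℕ, S.J ≤ P ⊔ S.J ^ (m + 1) := by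
    intro m
    induction m with
    | zero => rw [zero_add, pow_one]; exact le_sup_right
    | succ m ih =>
      refine hJg.trans (sup_le (le_sup_of_le_left ?_) ((mul_le_mul' ih ih).trans ?_))
      · rw [Submodule.span_singleton_le_iff_mem]
        exact ⟨hg, Algebra.subset_adjoin rfl⟩
      · rw [Submodule.sup_mul, Submodule.mul_sup, Submodule.mul_sup]
        refine sup_le (sup_le (le_sup_of_le_left hPP) (le_sup_of_le_right ?_)) (le_sup_of_le_right (sup_le ?_ ?_))
        · rw [pow_succ' S.J (m + 1)]; exact mul_le_mul' hPJ le_rfl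
        · rw [pow_succ S.J (m + 1)]; exact mul_le_mul' le_rfl hPJ
        · rw [pow_succ S.J (m + 1)]; exact mul_le_mul' le_rfl (hJpow m)
  have hJad : ∀ p ∈ S.J, p ∈ Algebra.adjoin k ({g} : Set A) := fun p hp => by
    have := hJP S.N hp
    rw [S.nilJ, sup_bot_eq] at this
    exact this.2
  have hJcomm : ∀ p ∈ S.J, ∀ q ∈ S.J, p * q = q * p := by
    intro p hp q hq
    have hcomm := Algebra.isMulCommutative_adjoin k (s := ({g} : Set A)) (by simp)
    exact congrArg Subtype.val (hcomm.is_comm.comm (⟨p, hJad p hp⟩ : Algebra.adjoin k ({g} : Set A)) ⟨q, hJad q hq⟩)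
  intro p hp q hq
  obtain ⟨a, ha⟩ := S.dec' hp
  obtain ⟨b, hb⟩ := S.dec' hq
  have h := hJcomm _ ha _ hb
  simp only [mul_sub, sub_mul, smul_mul_assoc, mul_smul_comm, S.f_mul hp, S.mul_f hp, S.f_mul hq, S.mul_f hq,
    S.idem, smul_sub, smul_comm a b] at h
  linear_combination (norm := abel) h

/-- A module on which `e` is the identity has dimension a multiple of the size. -/
theorem dvd_of_rep {V : Type*} [AddCommGroup V] [Module k V] [FiniteDimensional k V] (σ : A →ₐ[k] Module.End k V)
    (hσ : σ e = 1) : S.n ∣ finrank k V := by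
  let U := LinearMap.range (σ S.f)
  have hmem : ∀ i x, σ (S.v i) x ∈ U := fun i x => ⟨σ (S.v i) x, by rw [← Module.End.mul_apply, ← map_mul, S.fv]⟩
  have hU : ∀ y : U, σ S.f y = y := by
    rintro ⟨_, x, rfl⟩
    show σ S.f (σ S.f x) = σ S.f x
    rw [← Module.End.mul_apply, ← map_mul, S.idem]
  let F : V →ₗ[k] (Fin S.n → U) := LinearMap.pi fun i => (σ (S.v i)).codRestrict U (hmem i)
  let B : (Fin S.n → U) →ₗ[k] V := ∑ i, σ (S.u i) ∘ₗ U.subtype ∘ₗ LinearMap.proj i
  have hBF : ∀ x, B (F x) = x := by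
    intro x
    simp only [B, F, LinearMap.sum_apply, LinearMap.comp_apply, LinearMap.proj_apply, LinearMap.pi_apply,
      Submodule.subtype_apply, LinearMap.codRestrict_apply, ← Module.End.mul_apply, ← map_mul]
    rw [← LinearMap.sum_apply, ← map_sum, S.sum_eq, hσ, Module.End.one_apply]
  have hFB : ∀ y, F (B y) = y := by
    intro y
    funext i
    refine Subtype.ext ?_
    show σ (S.v i) (B y) = y i
    simp only [B, LinearMap.sum_apply, LinearMap.comp_apply, LinearMap.proj_apply, Submodule.subtype_apply, map_sum,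
      ← Module.End.mul_apply, ← map_mul, S.unit]
    rw [Finset.sum_eq_single i (fun j _ hj => by rw [if_neg (Ne.symm hj), map_zero]; rfl)
      (fun h => absurd (Finset.mem_univ i) h), if_pos rfl, hU]
  refine ⟨finrank k U, ?_⟩
  rw [(LinearEquiv.ofLinearMap F B (LinearMap.ext hFB) (LinearMap.ext hBF)).finrank_eq, Module.finrank_pi_fintype]
  simp

/-- The summand is spanned by matrices over the corner. -/
theorem finrank_range_le [FiniteDimensional k A] (hc : ∀ z, Commute e z) :
    finrank k (LinearMap.range (LinearMap.mulLeft k e)) ≤ S.n ^ 2 * finrank k S.C := by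
  let Φ : (Fin S.n → Fin S.n → S.C) →ₗ[k] A :=
    ∑ i, ∑ j, LinearMap.mulLeft k (S.u i) ∘ₗ LinearMap.mulRight k (S.v j) ∘ₗ S.C.subtype ∘ₗ LinearMap.proj j ∘ₗ
      LinearMap.proj i
  have h : LinearMap.range (LinearMap.mulLeft k e) ≤ LinearMap.range Φ := by
    rintro _ ⟨z, rfl⟩
    refine ⟨fun i j => ⟨S.v i * z * S.u j, S.mem_C.2 (S.cor z i j)⟩, ?_⟩
    simp only [Φ, LinearMap.sum_apply, LinearMap.comp_apply, LinearMap.mulLeft_apply, LinearMap.mulRight_apply,
      LinearMap.proj_apply, Submodule.subtype_apply]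
    have he : e * e = e := by conv_lhs => rw [← S.sum_eq, Finset.sum_mul]; simp only [mul_assoc, S.ve, S.sum_eq]
    calc ∑ i, ∑ j, S.u i * (S.v i * z * S.u j * S.v j) = (∑ i, S.u i * S.v i) * z * (∑ j, S.u j * S.v j) := by
          simp only [Finset.sum_mul, Finset.mul_sum, mul_assoc]
          rw [Finset.sum_comm]
      _ = e * z := by rw [S.sum_eq, mul_assoc, ← (hc z).eq, ← mul_assoc, he]
  refine (Submodule.finrank_mono h).trans ((LinearMap.finrank_range_le Φ).trans (le_of_eq ?_))
  simp [Module.finrank_pi_fintype, pow_two, mul_assoc]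

end Corner

variable [IsAlgClosed k] [FiniteDimensional k A]

open TwoChar in
/-- One simple module gives the matrix units. -/
theorem exists_corner {e : A} (he : IsIdempotentElem e) (hc : ∀ z, Commute e z) (he0 : e ≠ 0)
    (hone : ∀ (m m' : ℕ) (σ : A →ₐ[k] Matrix (Fin m) (Fin m) k) (τ : A →ₐ[k] Matrix (Fin m') (Fin m') k),
      σ e = 1 → τ e = 1 →
        ¬ LinearIndependent k ![(Matrix.traceLinearMap (Fin m) k k) ∘ₗ σ.toLinearMap,
          (Matrix.traceLinearMap (Fin m') k k) ∘ₗ τ.toLinearMap]) :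
    Nonempty (Corner k e) := by
  classical
  obtain ⟨s, d, hd, π, hπ, N, hN⟩ := exists_split (k := k) (A := A)
  have hcomp : ∀ i, π e i = 0 ∨ π e i = 1 := by
    intro i
    haveI := hd i
    obtain ⟨c, hc'⟩ : π e i ∈ Set.range (Matrix.scalar (Fin (d i))) := by
      refine Matrix.mem_range_scalar_iff_commute_single'.2 fun a b => ?_
      obtain ⟨z, hz⟩ := hπ (Pi.single i (Matrix.single a b (1 : k)))
      have := congrFun (congrArg π (hc z).eq) i
      rw [map_mul, map_mul, Pi.mul_apply, Pi.mul_apply, hz, Pi.single_eq_same] at this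
      exact this.symm
    have h2 : π e i * π e i = π e i := by rw [← Pi.mul_apply, ← map_mul, he.eq]
    rw [← hc', ← map_mul] at h2
    have h3 := Matrix.scalar_inj.1 h2
    rcases mul_left_eq_self₀.1 h3 with h | h
    · exact Or.inr (by rw [← hc', h, map_one])
    · exact Or.inl (by rw [← hc', h, map_zero])
  have hkerN : ∀ x, π x = 0 → x ^ (N + 1) = 0 := by
    intro x hx
    have : x ^ (N + 1) ∈ (LinearMap.ker π.toLinearMap) ^ (N + 1) :=
      Submodule.pow_mem_pow _ (show x ∈ LinearMap.ker π.toLinearMap from hx) _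
    rwa [hN, Submodule.mem_bot] at this
  obtain ⟨i₀, hi₀⟩ : ∃ i, π e i = 1 := by
    by_contra hcon
    push Not at hcon
    have h := hkerN e (funext fun i => (hcomp i).resolve_right (hcon i))
    rw [he.pow_succ_eq] at h
    exact he0 h
  have huniq : ∀ i, π e i = 1 → i = i₀ := by
    intro i hi
    by_contra hne'
    refine hone (d i) (d i₀) ((Pi.evalAlgHom k _ i).comp π) ((Pi.evalAlgHom k _ i₀).comp π) hi hi₀
      (LinearIndependent.pair_iff.2 fun a b hab => ?_)
    haveI := hd i; haveI := hd i₀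
    obtain ⟨z, hz⟩ := hπ (Pi.single i (Matrix.single 0 0 (1 : k)))
    obtain ⟨z', hz'⟩ := hπ (Pi.single i₀ (Matrix.single 0 0 (1 : k)))
    have a1 := congrArg (fun F : Module.Dual k A => F z) hab
    have a2 := congrArg (fun F : Module.Dual k A => F z') hab
    simp [hz, hz', hne', Ne.symm hne', Pi.single_eq_of_ne] at a1 a2
    exact ⟨a1, a2⟩
  set n := d i₀ with hn
  haveI : NeZero n := hd i₀
  let ρ : A →ₐ[k] Matrix (Fin n) (Fin n) k := (Pi.evalAlgHom k _ i₀).comp π
  have hρ : ∀ z, ρ z = π z i₀ := fun _ => rfl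
  have hρsurj : Function.Surjective ρ := fun w => by
    obtain ⟨z, hz⟩ := hπ (Pi.single i₀ w)
    exact ⟨z, by rw [hρ, hz, Pi.single_eq_same]⟩
  have hρe : ρ e = 1 := hi₀
  have hker0 : ∀ x, e * x = x → ρ x = 0 → π x = 0 := by
    intro x hx h0
    funext i
    rcases hcomp i with h | h
    · rw [← hx, map_mul, Pi.mul_apply, h, zero_mul]; rfl
    · rw [huniq i h]; exact h0
  obtain ⟨f₀, hf₀, hf₀π⟩ := exists_isIdempotentElem_eq_of_ker_isNilpotent π.toRingHom
    (fun x hx => ⟨N + 1, hkerN x hx⟩) (Pi.single i₀ (Matrix.single 0 0 (1 : k))) (hπ _) (by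
      rw [IsIdempotentElem, ← Pi.single_mul, Matrix.single_mul_single_same, one_mul])
  obtain ⟨f, hf⟩ : ∃ f, f = e * f₀ := ⟨_, rfl⟩
  have hef : e * f = f := by rw [hf, ← mul_assoc, he.eq]
  have hfe : f * e = f := by rw [(hc f).symm.eq, hef]
  have hff : f * f = f := by
    rw [hf, mul_assoc, ← mul_assoc f₀, ← (hc f₀).eq, mul_assoc e f₀, hf₀.eq, ← mul_assoc, he.eq]
  have hρf : ρ f = Matrix.single 0 0 1 := by
    rw [hf, map_mul, hρe, one_mul, hρ]
    exact (congrFun hf₀π i₀).trans (Pi.single_eq_same _ _)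
  choose a ha using fun i : Fin n => hρsurj (Matrix.single i 0 (1 : k))
  choose b hb using fun i : Fin n => hρsurj (Matrix.single 0 i (1 : k))
  set x := ∑ i, (e * a i * f) * (f * b i * e) with hx
  have hρx : ρ x = 1 := by
    rw [hx, map_sum]
    simp only [map_mul, ha, hb, hρe, hρf, one_mul, mul_one, Matrix.single_mul_single_same, mul_one]
    ext p q
    simp [Matrix.sum_apply, Matrix.single_apply, Matrix.one_apply, ite_and]
  have hex : e * x = x := by
    rw [hx, Finset.mul_sum]
    exact Finset.sum_congr rfl fun i _ => by simp only [← mul_assoc, he.eq]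
  have hn0 : π (e - x) = 0 := hker0 _ (by rw [mul_sub, he.eq, hex]) (by rw [map_sub, hρe, hρx, sub_self])
  set w := ∑ i ∈ Finset.range (N + 1), (e - x) ^ i with hw
  have hw1 : (1 - (e - x)) * w = 1 := by rw [hw, mul_neg_geom_sum, hkerN _ hn0, sub_zero]
  have hxw : x * w = e := by
    conv_rhs => rw [← mul_one e, ← hw1, ← mul_assoc, mul_sub, mul_one, mul_sub, he.eq, hex, sub_sub_cancel]
  have hρw : ρ w = 1 := by
    have := congrArg ρ hw1
    rwa [map_mul, map_sub, map_sub, map_one, hρe, hρx, sub_self, sub_zero, one_mul] at this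
  obtain ⟨u, hu'⟩ : ∃ u : Fin n → A, u = fun i => e * a i * f := ⟨_, rfl⟩
  obtain ⟨v, hv'⟩ : ∃ v : Fin n → A, v = fun i => f * b i * e * w * e := ⟨_, rfl⟩
  have hu : ∀ i, e * u i = u i := fun i => by simp only [hu', ← mul_assoc, he.eq]
  have huf : ∀ i, u i * f = u i := fun i => by simp only [hu']; rw [mul_assoc, hff]
  have hfv : ∀ i, f * v i = v i := fun i => by simp only [hv', ← mul_assoc, hff]
  have hve : ∀ i, v i * e = v i := fun i => by simp only [hv']; rw [mul_assoc, he.eq]
  have hsum : ∑ i, u i * v i = e := by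
    have : ∑ i, u i * v i = x * w * e := by
      rw [hx, Finset.sum_mul, Finset.sum_mul]
      exact Finset.sum_congr rfl fun i _ => by simp only [hu', hv', mul_assoc]
    rw [this, hxw, he.eq]
  have hρu : ∀ i, ρ (u i) = Matrix.single i 0 1 := fun i => by
    simp only [hu', map_mul, ha, hρe, hρf, one_mul, Matrix.single_mul_single_same]
  have hρv : ∀ i, ρ (v i) = Matrix.single 0 i 1 := fun i => by
    simp only [hv', map_mul, hb, hρe, hρf, hρw, mul_one, Matrix.single_mul_single_same, one_mul]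
  let C : Submodule k A := LinearMap.range (LinearMap.mulLeft k f ∘ₗ LinearMap.mulRight k f)
  have hmemC : ∀ z, f * z * f = z → z ∈ C := fun z h =>
    ⟨z, by simp only [LinearMap.comp_apply, LinearMap.mulLeft_apply, LinearMap.mulRight_apply, ← mul_assoc, h]⟩
  have hnil : (C ⊓ LinearMap.ker ρ.toLinearMap) ^ (N + 1) = ⊥ := by
    refine le_bot_iff.1 (le_trans (pow_le_pow_left' (fun z hz => ?_) _) hN.le)
    obtain ⟨⟨y, rfl⟩, h2⟩ := Submodule.mem_inf.1 hz
    refine hker0 _ ?_ h2
    simp only [LinearMap.comp_apply, LinearMap.mulLeft_apply, LinearMap.mulRight_apply, ← mul_assoc, hef]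
  -- the products of the rows with the columns
  let Nm : Matrix (Fin n) (Fin n) A := Matrix.of fun i j => v i * u j
  let F : Matrix (Fin n) (Fin n) A := Matrix.diagonal fun _ => f
  have hNN : Nm * Nm = Nm := by
    ext i j
    simp only [Matrix.mul_apply, Nm, Matrix.of_apply]
    calc ∑ l, v i * u l * (v l * u j) = v i * (∑ l, u l * v l) * u j := by
          simp only [Finset.mul_sum, Finset.sum_mul, mul_assoc]
      _ = v i * u j := by rw [hsum, hve]
  have hNF : Nm * F = Nm := by
    ext i j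
    simp only [F, Matrix.mul_diagonal, Nm, Matrix.of_apply]
    rw [mul_assoc, huf]
  have hFN : F * Nm = Nm := by
    ext i j
    simp only [F, Matrix.diagonal_mul, Nm, Matrix.of_apply]
    rw [← mul_assoc, hfv]
  have hFF : F * F = F := by simp only [F, Matrix.diagonal_mul_diagonal, hff]
  have hX : (F - Nm) * (F - Nm) = F - Nm := by
    simp [mul_sub, sub_mul, hFF, hFN, hNF, hNN]
  have hXJ : ∀ i j, (F - Nm) i j ∈ C ⊓ LinearMap.ker ρ.toLinearMap := by
    intro i j
    refine Submodule.mem_inf.2 ⟨hmemC _ ?_, ?_⟩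
    · simp only [Matrix.sub_apply, F, Nm, Matrix.of_apply, mul_sub, sub_mul, Matrix.diagonal_apply, mul_ite, ite_mul,
        mul_zero, zero_mul, hff]
      rw [← mul_assoc f, hfv, mul_assoc (v i), huf]
    · show ρ _ = 0
      simp only [Matrix.sub_apply, F, Nm, Matrix.of_apply, map_sub, map_mul, hρu, hρv, Matrix.diagonal_apply]
      split_ifs with h
      · subst h; rw [hρf, Matrix.single_mul_single_same, mul_one, sub_self]
      · rw [map_zero, Matrix.single_mul_single_of_ne _ _ _ _ h, sub_self]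
  have hXpow : ∀ m i j, ((F - Nm) ^ (m + 1)) i j ∈ (C ⊓ LinearMap.ker ρ.toLinearMap) ^ (m + 1) := by
    intro m
    induction m with
    | zero => simpa using hXJ
    | succ m ih =>
      intro i j
      rw [pow_succ (F - Nm) (m + 1), Matrix.mul_apply, pow_succ (C ⊓ LinearMap.ker ρ.toLinearMap) (m + 1)]
      exact Submodule.sum_mem _ fun l _ => Submodule.mul_mem_mul (ih i l) (hXJ l j)
  have hunit : ∀ i j, v i * u j = if i = j then f else 0 := by
    intro i j
    have h := hXpow N i j
    rw [hnil, Submodule.mem_bot, (show IsIdempotentElem (F - Nm) from hX).pow_succ_eq, Matrix.sub_apply,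
      sub_eq_zero] at h
    simpa [F, Nm, Matrix.diagonal_apply, eq_comm] using h.symm
  refine ⟨⟨n, Nat.pos_of_ne_zero (NeZero.ne n), f, u, v, ρ, hff, hef, hfe, hu, huf, hfv, hve, hsum, hunit, hρe,
    fun h => ?_, fun z h => ⟨ρ z 0 0, ?_⟩, N, hnil, fun x hx h0 => hkerN x (hker0 x hx h0)⟩⟩
  · simpa [hρf, Matrix.single_apply_same] using congrFun (congrFun h 0) 0
  · have h2 := congrArg ρ h
    rw [map_mul, map_mul, hρf, Matrix.single_mul_mul_single, one_mul, mul_one] at h2
    rw [map_sub, map_smul, hρf, Matrix.smul_single, smul_eq_mul, mul_one, h2]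
    exact sub_self _

end CfsgLib.Blocks.CyclicRankOne
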