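import Mathlib
import Cfsg.Agent.Blocks.CyclicRankOne.Corner

/-!
# A symmetric local algebra with at most four trace forms is commutative

The socle avoids the commutators, so the radical needs two generators at most, and then associativity of three
generators kills the cube of the radical.
-/

set_option autoImplicit false
set_option linter.unusedSectionVars false
set_option linter.style.haveILetI false

namespace CfsgLib.Blocks.CyclicRankOne

open Module

variable {k A : Type*} [Field k] [Ring A] [Algebra k A] {e : A} (S : Corner k e)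

namespace Corner

/-- The commutators of the corner. -/
def K : Submodule k A := Submodule.span k ((fun pq : A × A => pq.1 * pq.2 - pq.2 * pq.1) '' (S.C ×ˢ S.C : Set (A × A)))

theorem mem_K {p q : A} (hp : p ∈ S.C) (hq : q ∈ S.C) : p * q - q * p ∈ S.K :=
  Submodule.subset_span ⟨(p, q), ⟨hp, hq⟩, rfl⟩

theorem K_le {W : Submodule k A} (h : ∀ p ∈ S.J, ∀ q ∈ S.J, p * q - q * p ∈ W) : S.K ≤ W := by
  refine Submodule.span_le.2 ?_
  rintro _ ⟨⟨p, q⟩, ⟨hp, hq⟩, rfl⟩
  obtain ⟨a, ha⟩ := S.dec' (S.mem_C.1 hp)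
  obtain ⟨b, hb⟩ := S.dec' (S.mem_C.1 hq)
  show p * q - q * p ∈ W
  have e : p * q - q * p = (p - a • S.f) * (q - b • S.f) - (q - b • S.f) * (p - a • S.f) := by
    simp only [mul_sub, sub_mul, smul_mul_assoc, mul_smul_comm, S.f_mul (S.mem_C.1 hp), S.mul_f (S.mem_C.1 hp),
      S.f_mul (S.mem_C.1 hq), S.mul_f (S.mem_C.1 hq), S.idem, smul_sub, smul_comm a b]
    abel
  rw [e]
  exact h _ ha _ hb

theorem trace_K (τ : Module.Dual k A) (htr : ∀ x y, τ (x * y) = τ (y * x)) {z : A} (hz : z ∈ S.K) : τ z = 0 := by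
  have h : S.K ≤ LinearMap.ker τ := by
    refine Submodule.span_le.2 ?_
    rintro _ ⟨⟨p, q⟩, -, rfl⟩
    show τ (p * q - q * p) = 0
    rw [map_sub, htr, sub_self]
  exact h hz

/-- Few trace forms make a symmetric corner commutative. -/
theorem comm_of_small [FiniteDimensional k A] (τ : Module.Dual k A) (htr : ∀ x y, τ (x * y) = τ (y * x))
    (hnd : ∀ z, S.f * z * S.f = z → (∀ w, S.f * w * S.f = w → τ (z * w) = 0) → z = 0)
    (hK : finrank k S.C ≤ finrank k S.K + 4) :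
    ∀ p, S.f * p * S.f = p → ∀ q, S.f * q * S.f = q → p * q = q * p := by
  classical
  -- the socle avoids the commutators
  have hsoc : ∀ z ∈ S.J, (∀ j ∈ S.J, z * j = 0) → z ∈ S.K → z = 0 := by
    intro z hz hann hzK
    refine hnd z (S.mem_J.1 hz).1 fun w hw => ?_
    obtain ⟨a, ha⟩ := S.dec' hw
    have : z * w = a • z := by
      have h := hann _ ha
      rwa [mul_sub, mul_smul_comm, S.mul_f (S.mem_J.1 hz).1, sub_eq_zero] at h
    rw [this, map_smul, S.trace_K τ htr hzK, smul_zero]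
  have hKbot : S.K = ⊥ → ∀ p, S.f * p * S.f = p → ∀ q, S.f * q * S.f = q → p * q = q * p := fun h p hp q hq => by
    have := S.mem_K (S.mem_C.2 hp) (S.mem_C.2 hq)
    rwa [h, Submodule.mem_bot, sub_eq_zero] at this
  by_cases hgen : ∃ g ∈ S.J, S.J ≤ Submodule.span k {g} ⊔ S.J * S.J
  · obtain ⟨g, hg, hJg⟩ := hgen
    exact S.comm_of_gen hg hJg
  push Not at hgen
  refine hKbot ?_
  have hJJ : S.J ^ 2 = S.J * S.J := pow_two _
  have hKJ2 : S.K ≤ S.J * S.J := S.K_le fun p hp q hq =>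
    Submodule.sub_mem _ (Submodule.mul_mem_mul hp hq) (Submodule.mul_mem_mul hq hp)
  by_cases hJ2 : S.J * S.J = ⊥
  · exact le_bot_iff.1 (hKJ2.trans hJ2.le)
  have hanti : ∀ m, S.J ^ (m + 2) ≤ S.J ^ (m + 1) := by
    intro m
    induction m with
    | zero => rw [pow_two, pow_one]; exact S.J_mul_J
    | succ m ih => rw [pow_succ _ (m + 2), pow_succ _ (m + 1)]; exact mul_le_mul' ih le_rfl
  have hle : ∀ i m, S.J ^ (m + i + 1) ≤ S.J ^ (m + 1) := by
    intro i
    induction i with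
    | zero => intro m; exact le_rfl
    | succ i ih => intro m; exact (hanti (m + i)).trans (ih m)
  -- the last power
  have hex : ∃ n, S.J ^ (n + 2) = ⊥ := ⟨S.N, le_bot_iff.1 ((hanti S.N).trans S.nilJ.le)⟩
  obtain ⟨n, hn, hmin⟩ : ∃ n, S.J ^ (n + 2) = ⊥ ∧ ∀ m < n, S.J ^ (m + 2) ≠ ⊥ :=
    ⟨Nat.find hex, Nat.find_spec hex, fun m hm => Nat.find_min hex hm⟩
  obtain ⟨n, rfl⟩ : ∃ n', n = n' + 1 := ⟨n - 1, by
    rcases n with _ | n
    · exact absurd (hJJ ▸ hn) hJ2
    · rfl⟩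
  obtain ⟨z, hz, hz0⟩ := (Submodule.ne_bot_iff _).1 (hmin n (Nat.lt_succ_self n))
  have hzJ2 : z ∈ S.J * S.J := by
    rw [← hJJ]; exact hle n 1 (by rw [show 1 + n + 1 = n + 2 by omega]; exact hz)
  have hzann : ∀ j ∈ S.J, z * j = 0 := fun j hj => by
    have h : z * j ∈ S.J ^ (n + 1 + 2) := by
      rw [show n + 1 + 2 = (n + 2) + 1 by omega, pow_succ]
      exact Submodule.mul_mem_mul hz hj
    rwa [hn, Submodule.mem_bot] at h
  have hzK : z ∉ S.K := fun h => hz0 (hsoc z (S.J_mul_J hzJ2) hzann h)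
  obtain ⟨g, hg, hgI⟩ : ∃ g ∈ S.J, g ∉ S.J * S.J := by
    by_contra h
    push Not at h
    exact hgen 0 S.J.zero_mem (le_trans (show S.J ≤ S.J * S.J from h) le_sup_right)
  obtain ⟨g', hg', hgI'⟩ := SetLike.not_le_iff_exists.1 (hgen g hg)
  -- counting
  have hlt : ∀ {U : Submodule k A} {x : A}, x ∉ U → finrank k U + 1 ≤ finrank k ↥(U ⊔ Submodule.span k {x}) := by
    intro U x hx
    exact Submodule.finrank_lt_finrank_of_lt (lt_of_le_of_ne le_sup_left fun h =>
      hx (h ▸ Submodule.mem_sup_right (Submodule.mem_span_singleton_self x)))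
  have hU1 : S.J * S.J ⊔ Submodule.span k {g} ≤ S.J :=
    sup_le S.J_mul_J ((Submodule.span_singleton_le_iff_mem _ _).2 hg)
  have hU2 : S.J * S.J ⊔ Submodule.span k {g} ⊔ Submodule.span k {g'} ≤ S.J :=
    sup_le hU1 ((Submodule.span_singleton_le_iff_mem _ _).2 hg')
  have d1 : finrank k S.J + 1 ≤ finrank k S.C := by
    refine (hlt S.f_not_mem_J).trans (Submodule.finrank_mono (sup_le inf_le_left ?_))
    exact (Submodule.span_singleton_le_iff_mem _ _).2 (S.mem_C.2 (by rw [S.idem, S.idem]))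
  have d2 : finrank k ↥(S.J * S.J) + 1 ≤ finrank k ↥(S.J * S.J ⊔ Submodule.span k {g}) := hlt hgI
  have d3 : finrank k ↥(S.J * S.J ⊔ Submodule.span k {g}) + 1 ≤
      finrank k ↥(S.J * S.J ⊔ Submodule.span k {g} ⊔ Submodule.span k {g'}) := hlt (by rwa [sup_comm])
  have d4 : finrank k S.K + 1 ≤ finrank k ↥(S.K ⊔ Submodule.span k {z}) := hlt hzK
  have d5 := Submodule.finrank_mono (sup_le hKJ2 ((Submodule.span_singleton_le_iff_mem _ _).2 hzJ2))
  have d6 := Submodule.finrank_mono hU2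
  have e1 : S.K ⊔ Submodule.span k {z} = S.J * S.J := Submodule.eq_of_le_of_finrank_le
    (sup_le hKJ2 ((Submodule.span_singleton_le_iff_mem _ _).2 hzJ2)) (by omega)
  have e2 : S.J * S.J ⊔ Submodule.span k {g} ⊔ Submodule.span k {g'} = S.J :=
    Submodule.eq_of_le_of_finrank_le hU2 (by omega)
  -- the cube of the radical
  rcases Nat.eq_zero_or_pos n with rfl | hnpos
  · refine (Submodule.eq_bot_iff _).2 fun w hw => hsoc w (S.J_mul_J (hKJ2 hw)) (fun j hj => ?_) hw
    have h : w * j ∈ S.J ^ (0 + 1 + 2) := by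
      rw [show 0 + 1 + 2 = 2 + 1 from rfl, pow_succ, hJJ]
      exact Submodule.mul_mem_mul (hKJ2 hw) hj
    rwa [hn, Submodule.mem_bot] at h
  exfalso
  have hz3 : z ∈ S.J ^ 3 := by
    have := hle (n - 1) 2
    rw [show 2 + (n - 1) + 1 = n + 2 by omega] at this
    exact this hz
  set c := g * g' - g' * g with hc
  have hc2 : c ∈ S.J ^ 2 := by
    rw [hJJ]; exact Submodule.sub_mem _ (Submodule.mul_mem_mul hg hg') (Submodule.mul_mem_mul hg' hg)
  have hdec : ∀ p ∈ S.J, ∃ a b : k, p - a • g - b • g' ∈ S.J * S.J := by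
    intro p hp
    rw [← e2] at hp
    obtain ⟨u, hu, x, hx, rfl⟩ := Submodule.mem_sup.1 hp
    obtain ⟨j, hj, y, hy, rfl⟩ := Submodule.mem_sup.1 hu
    obtain ⟨a, rfl⟩ := Submodule.mem_span_singleton.1 hy
    obtain ⟨b, rfl⟩ := Submodule.mem_span_singleton.1 hx
    exact ⟨a, b, by rwa [show j + a • g + b • g' - a • g - b • g' = j by abel]⟩
  have h21 : ∀ x ∈ S.J * S.J, ∀ y ∈ S.J, x * y ∈ S.J ^ 3 ∧ y * x ∈ S.J ^ 3 := fun x hx y hy => by
    refine ⟨?_, ?_⟩
    · rw [show (3 : ℕ) = 2 + 1 from rfl, pow_succ, hJJ]; exact Submodule.mul_mem_mul hx hy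
    · rw [show (3 : ℕ) = 2 + 1 from rfl, pow_succ', hJJ]; exact Submodule.mul_mem_mul hy hx
  have hKc : S.K ≤ Submodule.span k {c} ⊔ S.J ^ 3 := by
    refine S.K_le fun p hp q hq => ?_
    obtain ⟨a, b, h1⟩ := hdec p hp
    obtain ⟨a', b', h2⟩ := hdec q hq
    set r := p - a • g - b • g' with hr
    set r' := q - a' • g - b' • g' with hr'
    have hlin : a • g + b • g' ∈ S.J := S.J.add_mem (S.J.smul_mem a hg) (S.J.smul_mem b hg')
    have hlin' : a' • g + b' • g' ∈ S.J := S.J.add_mem (S.J.smul_mem a' hg) (S.J.smul_mem b' hg')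
    have e : p * q - q * p = (a * b' - b * a') • c +
        ((a • g + b • g') * r' + r * q - (r' * (a • g + b • g') + q * r)) := by
      simp only [hr, hr', hc, mul_add, add_mul, mul_sub, sub_mul, smul_mul_assoc, mul_smul_comm, smul_smul,
        sub_smul, smul_sub]
      module
    rw [e]
    refine Submodule.add_mem _ (Submodule.mem_sup_left (Submodule.smul_mem _ _ (Submodule.mem_span_singleton_self c)))
      (Submodule.mem_sup_right (Submodule.sub_mem _ (Submodule.add_mem _ (h21 _ h2 _ hlin).2 (h21 _ h1 _ hq).1)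
        (Submodule.add_mem _ (h21 _ h2 _ hlin).1 (h21 _ h1 _ hq).2)))
  have hJ2c : S.J * S.J ≤ Submodule.span k {c} ⊔ S.J ^ 3 :=
    e1 ▸ sup_le hKc ((Submodule.span_singleton_le_iff_mem _ _).2 (Submodule.mem_sup_right hz3))
  have hsq : ∀ x ∈ S.J * S.J, ∃ a : k, x - a • c ∈ S.J ^ 3 := fun x hx => by
    obtain ⟨y, hy, j, hj, rfl⟩ := Submodule.mem_sup.1 (hJ2c hx)
    obtain ⟨a, rfl⟩ := Submodule.mem_span_singleton.1 hy
    exact ⟨a, by simpa using hj⟩
  obtain ⟨α, hα⟩ := hsq _ (Submodule.mul_mem_mul hg hg)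
  obtain ⟨β, hβ⟩ := hsq _ (Submodule.mul_mem_mul hg' hg')
  obtain ⟨γ, hγ⟩ := hsq _ (Submodule.mul_mem_mul hg hg')
  have hδ : g' * g - (γ - 1) • c ∈ S.J ^ 3 := by
    have : g' * g - (γ - 1) • c = g * g' - γ • c := by rw [hc, sub_smul, one_smul]; abel
    rwa [this]
  set π := (S.J ^ 4).mkQ with hπ
  have hπ4 : ∀ x, x ∈ S.J ^ 4 → π x = 0 := fun x hx => (Submodule.Quotient.mk_eq_zero _).2 hx
  have h31 : ∀ x ∈ S.J ^ 3, ∀ y ∈ S.J, π (x * y) = 0 ∧ π (y * x) = 0 := fun x hx y hy => by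
    refine ⟨hπ4 _ ?_, hπ4 _ ?_⟩
    · rw [show (4 : ℕ) = 3 + 1 from rfl, pow_succ]; exact Submodule.mul_mem_mul hx hy
    · rw [show (4 : ℕ) = 3 + 1 from rfl, pow_succ']; exact Submodule.mul_mem_mul hy hx
  have assoc : ∀ (u v w : A) (a b : k), u * v - a • c ∈ S.J ^ 3 → v * w - b • c ∈ S.J ^ 3 → u ∈ S.J → w ∈ S.J →
      a • π (c * w) = b • π (u * c) := by
    intro u v w a b h1 h2 hu hw
    have p1 := (h31 _ h1 w hw).1
    have p2 := (h31 _ h2 u hu).2
    rw [sub_mul, smul_mul_assoc, map_sub, map_smul, sub_eq_zero] at p1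
    rw [mul_sub, mul_smul_comm, map_sub, map_smul, sub_eq_zero, ← mul_assoc] at p2
    rw [← p1, ← p2]
  have xxx := assoc g g g α α hα hα hg hg
  have xxy := assoc g g g' α γ hα hγ hg hg'
  have xyx := assoc g g' g γ (γ - 1) hγ hδ hg hg
  have xyy := assoc g g' g' γ β hγ hβ hg hg'
  have yxx := assoc g' g g (γ - 1) α hδ hα hg' hg
  have yxy := assoc g' g g' (γ - 1) γ hδ hγ hg' hg'
  have yyx := assoc g' g' g β (γ - 1) hβ hδ hg' hg
  have yyy := assoc g' g' g' β β hβ hβ hg' hg'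
  have hcancel : ∀ {a : k} {v : A ⧸ S.J ^ 4}, a ≠ 0 → a • v = 0 → v = 0 :=
    fun ha h => (smul_eq_zero.1 h).resolve_left ha
  have hzero : π (c * g) = 0 ∧ π (c * g') = 0 := by
    by_cases ha : α = 0
    · by_cases hb : β = 0
      · simp only [ha, hb, zero_smul] at xxy xyy yxx yyx
        by_cases hg0 : γ = 0
        · simp only [hg0, zero_smul, zero_sub, neg_smul, one_smul, neg_eq_zero] at yxx yxy
          exact ⟨yxx, yxy⟩
        · have h1 : π (g * c) = 0 := hcancel hg0 xxy.symm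
          refine ⟨hcancel hg0 (by rw [xyx, h1, smul_zero]), hcancel hg0 xyy⟩
      · have h0 : π (c * g') = π (g' * c) := by
          have h := sub_eq_zero.2 yyy
          rw [← smul_sub] at h
          exact sub_eq_zero.1 (hcancel hb h)
        have h1 : π (g' * c) = 0 := by
          rw [h0, sub_smul, one_smul, sub_eq_self] at yxy
          exact yxy
        exact ⟨hcancel hb (by rw [yyx, h1, smul_zero]), h0.trans h1⟩
    · have h0 : π (c * g) = π (g * c) := by
        have h := sub_eq_zero.2 xxx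
        rw [← smul_sub] at h
        exact sub_eq_zero.1 (hcancel ha h)
      have h1 : π (g * c) = 0 := by
        rw [h0, sub_smul, one_smul] at xyx
        exact sub_eq_self.1 xyx.symm
      exact ⟨h0.trans h1, hcancel ha (by rw [xxy, h1, smul_zero])⟩
  have h34 : S.J ^ 3 ≤ S.J ^ 4 := by
    rw [show (3 : ℕ) = 2 + 1 from rfl, pow_succ, hJJ]
    refine Submodule.mul_le.2 fun x hx y hy => ?_
    obtain ⟨a, hax⟩ := hsq x hx
    obtain ⟨a', b', hy'⟩ := hdec y hy
    have p1 := (h31 _ hax y hy).1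
    rw [sub_mul, smul_mul_assoc, map_sub, map_smul, sub_eq_zero] at p1
    have p2 : π (c * (y - a' • g - b' • g')) = 0 := hπ4 _ (by
      rw [show (4 : ℕ) = 2 + 2 from rfl, pow_add, hJJ]
      exact Submodule.mul_mem_mul (hJJ ▸ hc2) hy')
    simp only [mul_sub, mul_smul_comm, map_sub, map_smul, hzero.1, hzero.2, smul_zero, sub_zero] at p2
    exact (Submodule.Quotient.mk_eq_zero _).1 (show π (x * y) = 0 by rw [p1, p2, smul_zero])
  have h3bot : ∀ i, S.J ^ 3 ≤ S.J ^ (3 + i) := by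
    intro i
    induction i with
    | zero => exact le_rfl
    | succ i ih =>
      refine h34.trans ?_
      rw [show (4 : ℕ) = 3 + 1 from rfl, pow_succ, show 3 + (i + 1) = (3 + i) + 1 from rfl, pow_succ]
      exact mul_le_mul' ih le_rfl
  have h3 : S.J ^ 3 = ⊥ := le_bot_iff.1 ((h3bot n).trans (le_of_eq (by rw [show 3 + n = n + 1 + 2 by omega, hn])))
  exact hmin 1 (by omega) (by rwa [show 1 + 2 = 3 from rfl])

end Corner

end CfsgLib.Blocks.CyclicRankOne
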