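import Cfsg.Agent.Blocks.CyclicRankOne.OneGen
import Cfsg.Agent.Blocks.CyclicRankOne.LocalComm
import Cfsg.Agent.Blocks.CyclicRankOne.Lift
import Cfsg.Agent.Blocks.BrauerChar.Reduction
import Cfsg.Agent.Blocks.TwoChar.Main
import Cfsg.Agent.Blocks.RankOne
import Cfsg.Agent.Blocks.BrauerChar.Indep

/-!
# A block of rank one with cyclic defect group has at least as many members as the order of that group

Over an algebraically closed residue field the block is a matrix algebra over a commutative local algebra, whose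
dimension is squeezed between the order of the defect group and the number of members.
-/

set_option autoImplicit false
set_option linter.unusedSectionVars false
set_option linter.style.haveILetI false

namespace CfsgLib.Blocks.CyclicRankOne

open Cfsg CfsgLib CfsgLib.Blocks CfsgLib.CharBasics CfsgLib.BrauerChar
open scoped ComplexConjugate

variable {p : ℕ} {M : Ideal AlgInt} {G : Type*} [Group G] [Fintype G] (hM : IsPModular p M)

/-- The block idempotent over the place. -/
noncomputable def eR {B : Set (IrrCharacter G)} (hB : IsPBlock M B) (g : G) : (plc hM).toSubring :=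
  ⟨blockCoeff B g, mem_plc hM (memLocalRing_blockCoeff hM hB g)⟩

/-- The block idempotent over the residue field. -/
noncomputable def eBar {B : Set (IrrCharacter G)} (hB : IsPBlock M B) : MonoidAlgebra (RF hM) G :=
  TwoChar.coords.symm fun g => res hM (eR hM hB g)

variable {B : Set (IrrCharacter G)} (hB : IsPBlock M B)

theorem coeff_eBar (g : G) : (eBar hM hB).coeff g = res hM (eR hM hB g) :=
  congrFun (TwoChar.coords.apply_symm_apply _) g

theorem eR_conj (g x : G) : eR hM hB (x * g * x⁻¹) = eR hM hB g := Subtype.ext (by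
  show blockCoeff B (x * g * x⁻¹) = blockCoeff B g
  simpa [coeff_blockElt] using coeff_conj (isClassElt_blockElt B) g x)

theorem eBar_comm (z : MonoidAlgebra (RF hM) G) : Commute (eBar hM hB) z := by
  rw [← TwoChar.sum_single' z]
  refine Commute.sum_right _ _ _ fun x _ => ?_
  refine MonoidAlgebra.ext (Finsupp.ext fun g => ?_)
  rw [MonoidAlgebra.coeff_mul_single_apply, MonoidAlgebra.coeff_single_mul_apply, coeff_eBar, coeff_eBar, mul_comm]
  congr 2
  rw [← eR_conj hM hB (x⁻¹ * g) x, mul_inv_cancel_left]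

theorem eR_conv (g : G) : ∑ h, eR hM hB h * eR hM hB (h⁻¹ * g) = eR hM hB g := by
  refine Subtype.ext ?_
  have h := coeff_mul_eq (blockElt B) (blockElt B) g
  rw [(isIdempotentElem_blockElt B).eq, coeff_blockElt] at h
  simp only [coeff_blockElt] at h
  rw [AddSubmonoidClass.coe_finsetSum]
  exact h.symm

theorem eBar_idem : IsIdempotentElem (eBar hM hB) := by
  refine MonoidAlgebra.ext (Finsupp.ext fun g => ?_)
  conv_rhs => rw [coeff_eBar, ← eR_conv hM hB g]
  conv_lhs => arg 1; arg 1; arg 1; rw [← TwoChar.sum_single' (eBar hM hB)]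
  simp only [Finset.sum_mul, MonoidAlgebra.coeff_sum, Finset.sum_apply', MonoidAlgebra.coeff_single_mul_apply,
    coeff_eBar]
  exact (Finset.sum_congr rfl fun h _ => (map_mul (res hM) _ _).symm).trans (map_sum (res hM) _ _).symm

include hB in
/-- Independent trace forms of the summand are bounded by the restrictions of the members. -/
theorem card_le_span {ι I : Type*} [Fintype ι] [Fintype I] (r : I → G)
    (F : ι → Module.Dual (RF hM) (MonoidAlgebra (RF hM) G)) (hF : ∀ i, TwoChar.IsTr (eBar hM hB) (F i))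
    (hli : LinearIndependent (RF hM) fun i x => F i (el (r x))) :
    Fintype.card ι ≤ Module.finrank ℂ (Submodule.span ℂ ((fun χ : IrrCharacter G => (χ : G → ℂ) ∘ r) '' B)) := by
  classical
  haveI : Fintype (IrrCharacter G) := @Fintype.ofFinite _ finite_irrCharacter
  have hres : Function.Surjective (res hM) := IsLocalRing.residue_surjective
  let L : RF hM → (plc hM).toSubring := Function.surjInv hres
  have hL : ∀ c, res hM (L c) = c := Function.surjInv_eq hres
  have hvc : ∀ i g x, F i (el (x * g * x⁻¹)) = F i (el g) := fun i g x => by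
    rw [← el_mul (x * g) x⁻¹, (hF i).1, el_mul, ← mul_assoc, inv_mul_cancel, one_mul]
  have hve : ∀ i g, F i (el g) = ∑ h, (eBar hM hB).coeff h * F i (el (h * g)) := fun i g => by
    conv_lhs => rw [← (hF i).2, TwoChar.apply_eq_sum (F i)]
    rw [← Equiv.sum_comp (Equiv.mulRight g)]
    exact Finset.sum_congr rfl fun h _ => by simp
  let W : ι → G → (plc hM).toSubring := fun i g => ∑ h, eR hM hB h * L (F i (el (h * g)))
  have hred : (fun i x => res hM (W i (r x))) = fun i x => F i (el (r x)) := by
    funext i x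
    rw [hve i (r x)]
    simp only [W, coeff_eBar]
    refine (map_sum (res hM) _ _).trans (Finset.sum_congr rfl fun h _ => ?_)
    exact (map_mul (res hM) _ _).trans (congrArg _ (hL _))
  have hliW := linearIndependent_of_res (plc hM).toSubring (res hM) hres (fun i x => W i (r x)) (by
    rw [hred]; exact hli)
  rw [← finrank_span_eq_card hliW]
  refine Submodule.finrank_mono (Submodule.span_le.2 ?_)
  rintro _ ⟨i, rfl⟩
  set w : G → ℂ := fun g => ((L (F i (el g)) : (plc hM).toSubring) : ℂ) with hw
  have hwc : IsClassFunction G w := fun g x => by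
    show ((L (F i (el (x * g * x⁻¹))) : (plc hM).toSubring) : ℂ) = _
    rw [hvc]
  have hexp := classFun_expand hwc
  have hω : ∀ (χ : IrrCharacter G) (g : G), ∑ h, blockCoeff B h * (χ : G → ℂ) (h * g)
      = if χ ∈ B then (χ : G → ℂ) g else 0 := by
    intro χ g
    have h1 := omega_mul χ.2 (isClassElt_blockElt B) (MonoidAlgebra.single g (1 : ℂ))
    rw [omega_single, one_mul, omega_blockElt] at h1
    have hne := apply_one_ne_zero χ.2
    rw [omega, div_eq_iff hne] at h1
    rw [← Equiv.sum_comp (Equiv.mulRight g)] at h1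
    simp only [Equiv.coe_mulRight, MonoidAlgebra.coeff_mul_single_apply, mul_inv_cancel_right, mul_one,
      coeff_blockElt] at h1
    rw [h1, ite_mul, one_mul, zero_mul, ite_mul, zero_mul, div_mul_cancel₀ _ hne]
  have hWe : (fun x => (W i (r x) : ℂ)) = ∑ χ : IrrCharacter G,
      if χ ∈ B then classInner w (χ : G → ℂ) • ((χ : G → ℂ) ∘ r) else 0 := by
    funext x
    calc (W i (r x) : ℂ) = ∑ h, blockCoeff B h * w (h * r x) := by
          simp only [W, AddSubmonoidClass.coe_finsetSum, MulMemClass.coe_mul]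
          rfl
      _ = ∑ h, blockCoeff B h * ∑ χ : IrrCharacter G, classInner w (χ : G → ℂ) * (χ : G → ℂ) (h * r x) := by
          refine Finset.sum_congr rfl fun h _ => ?_
          congr 1
          have := congrFun hexp (h * r x)
          simpa only [Finset.sum_apply, Pi.smul_apply, smul_eq_mul] using this
      _ = _ := by
          simp only [Finset.mul_sum, Finset.sum_apply]
          rw [Finset.sum_comm]
          refine Finset.sum_congr rfl fun χ _ => ?_
          simp only [mul_left_comm (blockCoeff B _), ← Finset.mul_sum, hω]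
          split_ifs <;> simp
  show (fun x => (W i (r x) : ℂ)) ∈ _
  rw [hWe]
  refine Submodule.sum_mem _ fun χ _ => ?_
  split_ifs with h
  · exact Submodule.smul_mem _ _ (Submodule.subset_span ⟨χ, h, rfl⟩)
  · exact Submodule.zero_mem _

theorem trace_form_isTr {m : ℕ} (σ : MonoidAlgebra (RF hM) G →ₐ[RF hM] Matrix (Fin m) (Fin m) (RF hM))
    (hσ : σ (eBar hM hB) = 1) :
    TwoChar.IsTr (eBar hM hB) ((Matrix.traceLinearMap (Fin m) (RF hM) (RF hM)) ∘ₗ σ.toLinearMap) :=
  ⟨fun a b => by simp [map_mul, Matrix.trace_mul_comm (σ a) (σ b)], fun z => by simp [hσ]⟩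

include hB in
/-- Rank one leaves one simple module. -/
theorem exists_corner_of_rank_one (hl : blockRank p B = 1) (he0 : eBar hM hB ≠ 0) :
    Nonempty (Corner (RF hM) (eBar hM hB)) := by
  classical
  haveI : Module.Finite (RF hM) (MonoidAlgebra (RF hM) G) := inferInstance
  refine exists_corner (eBar_idem hM hB) (eBar_comm hM hB) he0 fun m m' σ τ hσ hτ hli => ?_
  let I := {g : G // ¬ p ∣ orderOf g}
  set F := ![(Matrix.traceLinearMap (Fin m) (RF hM) (RF hM)) ∘ₗ σ.toLinearMap,
    (Matrix.traceLinearMap (Fin m') (RF hM) (RF hM)) ∘ₗ τ.toLinearMap] with hF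
  have htr : ∀ i, TwoChar.IsTr (eBar hM hB) (F i) := fun i => by
    fin_cases i
    exacts [trace_form_isTr hM hB σ hσ, trace_form_isTr hM hB τ hτ]
  have hreg : ∀ (g : G), ∀ c : Fin 2 → RF hM, (∀ x : I, ∑ j, c j * F j (el (x : G)) = 0) →
      ∑ j, c j * F j (el g) = 0 := by
    intro g c hc
    haveI := Fact.mk hM.1
    obtain ⟨x, y, hxy, hcom, ⟨n, hn⟩, hy, -, -⟩ := ZStar.exists_pPart (p := p) hM.1 g
    have hval : ∀ {l : ℕ} (θ : MonoidAlgebra (RF hM) G →ₐ[RF hM] Matrix (Fin l) (Fin l) (RF hM)),
        (θ (el g)).trace = (θ (el y)).trace := fun {l} θ => by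
      let ρ : Representation (RF hM) G (Fin l → RF hM) :=
        (Matrix.toLinAlgEquiv' : Matrix (Fin l) (Fin l) (RF hM) ≃ₐ[RF hM] _).toRingEquiv.toRingHom.toMonoidHom.comp
          (θ.toMonoidHom.comp (MonoidAlgebra.of (RF hM) G))
      have hρ : ∀ h, LinearMap.trace (RF hM) _ (ρ h) = (θ (el h)).trace := fun h => by
        show LinearMap.trace (RF hM) _ (Matrix.toLin' (θ (el h))) = _
        rw [Matrix.trace_toLin'_eq]
      rw [← hρ, ← hρ, ← hxy, trace_mul_pPower ρ hcom hn]
    refine Eq.trans (Finset.sum_congr rfl fun j _ => ?_) (hc ⟨y, hy⟩)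
    congr 1
    fin_cases j
    · exact hval σ
    · exact hval τ
  have hli' : LinearIndependent (RF hM) fun (i : Fin 2) (x : I) => F i (el (x : G)) := by
    rw [Fintype.linearIndependent_iff] at hli ⊢
    intro c hc
    refine hli c (LinearMap.ext fun z => ?_)
    rw [TwoChar.apply_eq_sum, LinearMap.zero_apply]
    refine Finset.sum_eq_zero fun g _ => ?_
    have := hreg g c fun x => by simpa [Finset.sum_apply] using congrFun hc x
    rw [LinearMap.sum_apply]
    simp only [LinearMap.smul_apply, smul_eq_mul]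
    rw [this, mul_zero]
  have h := card_le_span hM hB (fun x : I => (x : G)) F htr hli'
  rw [Fintype.card_fin] at h
  refine absurd (h.trans ?_) (show ¬ 2 ≤ blockRank p B by omega)
  have himg : (fun χ : IrrCharacter G => (χ : G → ℂ) ∘ fun x : I => (x : G)) '' B =
      (LinearMap.funLeft ℂ ℂ fun x : I => (x : G)) ''
        ((fun χ : IrrCharacter G => pRegularPart p (χ : G → ℂ)) '' B) := by
    rw [Set.image_image]
    refine Set.image_congr fun χ _ => funext fun x => ?_
    simp [LinearMap.funLeft_apply, pRegularPart_eq, x.2]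
  rw [himg, ← Submodule.map_span]
  exact Submodule.finrank_map_le _ _

/-- The reduced representation of a member. -/
theorem exists_rep {χ : IrrCharacter G} (hχ : χ ∈ B) (y : G) [DecidablePred (IsConj y)] :
    ∃ σ : MonoidAlgebra (RF hM) G →ₐ[RF hM] Matrix (Fin (charDegree (χ : G → ℂ))) (Fin (charDegree (χ : G → ℂ)))
        (RF hM),
      σ (eBar hM hB) = 1 ∧ σ (∑ x ∈ Finset.univ.filter (IsConj y), el x) =
        res hM ⟨centralChar (χ : G → ℂ) y, mem_plc hM (memLocalRing_centralChar hM χ y)⟩ • 1 := by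
  classical
  obtain ⟨n, m, ρ, b, A, hirr, hχ', hA⟩ := exists_integral_model hM χ
  have hnm : m = n := by simpa using (Module.finrank_eq_card_basis b).symm
  have hdeg : charDegree (χ : G → ℂ) = m := by
    have h := apply_one (isCharacter_of_irr χ.2)
    have h2 : (χ : G → ℂ) 1 = (n : ℂ) := by
      rw [← hχ', Representation.char_one, Module.finrank_fintype_fun_eq_card, Fintype.card_fin]
    rw [hnm]
    exact_mod_cast (h.symm.trans h2)
  subst hdeg
  let σ : MonoidAlgebra (RF hM) G →ₐ[RF hM] Matrix (Fin (charDegree (χ : G → ℂ)))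
      (Fin (charDegree (χ : G → ℂ))) (RF hM) :=
    MonoidAlgebra.lift (RF hM) _ G ((res hM).mapMatrix.toMonoidHom.comp A)
  have hσ : ∀ g, σ (el g) = (A g).map (res hM) := fun g => by
    simp [σ, MonoidAlgebra.lift_single]
  refine ⟨σ, ?_, ?_⟩
  · have hR : (∑ g, eR hM hB g • A g : Matrix _ _ (plc hM)) = 1 := by
      set R : Module.End ℂ (Fin n → ℂ) := ρ.asAlgebraHom (blockElt B) with hRdef
      have hRsum : R = ∑ g, blockCoeff B g • ρ g := by
        rw [hRdef, ← TwoChar.sum_single' (blockElt B), map_sum]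
        simp [Representation.asAlgebraHom_single, coeff_blockElt]
      have hidem : IsIdempotentElem R := (isIdempotentElem_blockElt B).map ρ.asAlgebraHom
      have htr : LinearMap.trace ℂ _ R = (n : ℂ) := by
        rw [hRsum, map_sum]
        have h1 : omega (χ : G → ℂ) (blockElt B) = 1 := by rw [omega_blockElt, if_pos hχ]
        rw [omega, div_eq_one_iff_eq (apply_one_ne_zero χ.2)] at h1
        simp only [coeff_blockElt, ← hχ'] at h1
        rw [Representation.char_one, Module.finrank_fintype_fun_eq_card, Fintype.card_fin] at h1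
        rw [← h1]
        exact Finset.sum_congr rfl fun g _ => by rw [map_smul, smul_eq_mul]; rfl
      have hproj : LinearMap.IsProj (LinearMap.range R) R := ⟨fun v => LinearMap.mem_range_self _ v, by
        rintro _ ⟨v, rfl⟩
        rw [← Module.End.mul_apply, hidem.eq]⟩
      rw [hproj.trace] at htr
      have htop : LinearMap.range R = ⊤ := Submodule.eq_top_of_finrank_eq (by
        rw [Module.finrank_fintype_fun_eq_card, Fintype.card_fin]; exact_mod_cast htr)
      have hR1 : R = 1 := LinearMap.ext fun v => hproj.map_id v (by rw [htop]; trivial)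
      apply Matrix.ext
      intro i j
      apply Subtype.val_injective
      have h2 := congrFun (congrFun (congrArg (LinearMap.toMatrix b b) (hRsum.symm.trans hR1)) i) j
      rw [map_sum, Matrix.sum_apply] at h2
      simp only [map_smul, ← hA] at h2
      rw [Matrix.sum_apply, AddSubmonoidClass.coe_finset_sum]
      refine Eq.trans (Finset.sum_congr rfl fun g _ => ?_) (h2.trans ?_)
      · simp [eR]
      · simp [Matrix.one_apply, LinearMap.toMatrix_one, apply_ite Subtype.val]
    rw [← TwoChar.sum_single' (eBar hM hB), map_sum]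
    have h3 := congrArg ((res hM).mapMatrix) hR
    rw [map_sum, map_one] at h3
    refine Eq.trans (Finset.sum_congr rfl fun g _ => ?_) h3
    rw [← mul_one ((eBar hM hB).coeff g), ← smul_eq_mul, ← MonoidAlgebra.smul_single, map_smul, hσ, coeff_eBar]
    ext i j
    simp [smul_eq_mul]
  · let c : plc hM := ⟨centralChar (χ : G → ℂ) y, mem_plc hM (memLocalRing_centralChar hM χ y)⟩
    have h : ∑ x ∈ Finset.univ.filter (fun x => x ∈ {z : G | IsConj y z}), A x = c • (1 : Matrix _ _ (plc hM)) := by
      apply Matrix.ext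
      intro i j
      apply Subtype.val_injective
      have h1 := congrArg (LinearMap.toMatrix b b) (classSum_eq hirr y)
      rw [map_sum, map_smul, LinearMap.toMatrix_one, hχ'] at h1
      simp only [← hA] at h1
      have h2 := congrFun (congrFun h1 i) j
      rw [Matrix.sum_apply] at h2
      rw [Matrix.sum_apply, AddSubmonoidClass.coe_finset_sum]
      refine h2.trans ?_
      simp [c, Matrix.one_apply, apply_ite Subtype.val]
    rw [map_sum]
    have h3 := congrArg ((res hM).mapMatrix) h
    rw [map_sum] at h3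
    refine Eq.trans (Finset.sum_congr ?_ fun x _ => hσ x) (h3.trans ?_)
    · ext x; simp
    · ext i j
      simp [Matrix.one_apply, apply_ite (res hM), c]

/-- The sum of the conjugates over the cosets of a subgroup of the centralizer. -/
theorem sum_conj_el {R : Type*} [CommRing R] {D : Subgroup G} [Fintype (G ⧸ D)] {y : G}
    (hD : D ≤ Subgroup.centralizer ({y} : Set G)) [DecidablePred (IsConj y)] :
    (∑ r : G ⧸ D, MonoidAlgebra.single (r.out * y * r.out⁻¹) (1 : R)) =
      D.relIndex (Subgroup.centralizer ({y} : Set G)) •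
        ∑ x ∈ Finset.univ.filter (IsConj y), MonoidAlgebra.single x (1 : R) := by
  classical
  set Cy := Subgroup.centralizer ({y} : Set G) with hCy
  have hconj : ∀ g h : G, g⁻¹ * h ∈ Cy → g * y * g⁻¹ = h * y * h⁻¹ := fun g h hgh => by
    have e : g⁻¹ * h * y = y * (g⁻¹ * h) := Subgroup.mem_centralizer_singleton_iff.1 hgh
    calc g * y * g⁻¹ = g * (y * (g⁻¹ * h)) * h⁻¹ := by group
      _ = g * ((g⁻¹ * h) * y) * h⁻¹ := by rw [e]
      _ = _ := by group
  have hcount : ∀ x ∈ Finset.univ.filter (IsConj y),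
      (Finset.univ.filter fun r : G ⧸ D => r.out * y * r.out⁻¹ = x).card = D.relIndex Cy := by
    intro x hx
    obtain ⟨g, rfl⟩ := isConj_iff.1 (Finset.mem_filter.1 hx).2
    rw [Subgroup.relIndex, Subgroup.index_eq_card, ← Fintype.card_subtype, ← Nat.card_eq_fintype_card]
    symm
    refine Nat.card_eq_of_bijective (fun q : Cy ⧸ D.subgroupOf Cy =>
      (⟨(QuotientGroup.mk (g * (q.out : G)) : G ⧸ D), ?_⟩ :
        {r : G ⧸ D // r.out * y * r.out⁻¹ = g * y * g⁻¹})) ⟨fun q q' h => ?_, fun ⟨r, hr⟩ => ?_⟩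
    · have h1 : (g * (q.out : G))⁻¹ * (QuotientGroup.mk (g * (q.out : G)) : G ⧸ D).out ∈ D :=
        QuotientGroup.eq.1 (QuotientGroup.out_eq' _).symm
      rw [← hconj _ _ (hD h1), ← hconj g (g * (q.out : G)) (by rw [inv_mul_cancel_left]; exact q.out.2)]
    · have h1 := QuotientGroup.eq.1 (congrArg Subtype.val h)
      rw [mul_inv_rev, mul_assoc, inv_mul_cancel_left] at h1
      rw [← QuotientGroup.out_eq' q, ← QuotientGroup.out_eq' q', QuotientGroup.eq, Subgroup.mem_subgroupOf]
      simpa using h1
    · have h1 : g⁻¹ * r.out ∈ Cy := Subgroup.mem_centralizer_singleton_iff.2 (by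
        calc g⁻¹ * r.out * y = g⁻¹ * (r.out * y * r.out⁻¹) * r.out := by group
          _ = _ := by rw [hr]; group)
      refine ⟨QuotientGroup.mk ⟨g⁻¹ * r.out, h1⟩, Subtype.ext ?_⟩
      set q : Cy ⧸ D.subgroupOf Cy := QuotientGroup.mk ⟨g⁻¹ * r.out, h1⟩
      show (QuotientGroup.mk (g * (q.out : G)) : G ⧸ D) = r
      conv_rhs => rw [← QuotientGroup.out_eq' r]
      rw [QuotientGroup.eq]
      have h2 := QuotientGroup.eq.1 (QuotientGroup.out_eq' q)
      rw [Subgroup.mem_subgroupOf] at h2
      simpa [mul_assoc] using h2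
  rw [Finset.smul_sum, ← Finset.sum_fiberwise_of_maps_to (g := fun r : G ⧸ D => r.out * y * r.out⁻¹)
    (t := Finset.univ.filter (IsConj y)) (fun r _ => Finset.mem_filter.2 ⟨Finset.mem_univ _, isConj_iff.2 ⟨_, rfl⟩⟩)]
  refine Finset.sum_congr rfl fun x hx => ?_
  rw [Finset.sum_congr rfl fun r hr => by rw [(Finset.mem_filter.1 hr).2], Finset.sum_const, hcount x hx]

include hM hB in
/-- Dual families of trace forms on the corner are bounded by the members. -/
theorem trace_forms_le (S : Corner (RF hM) (eBar hM hB)) {m : ℕ}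
    (h : Fin m → Module.Dual (RF hM) (MonoidAlgebra (RF hM) G)) (z : Fin m → MonoidAlgebra (RF hM) G)
    (hz : ∀ i, z i ∈ S.C)
    (htr : ∀ i x y, S.f * x * S.f = x → S.f * y * S.f = y → h i (x * y) = h i (y * x))
    (hd : ∀ i j, h i (z j) = if j = i then 1 else 0) : m ≤ Nat.card B := by
  classical
  haveI : Fintype (IrrCharacter G) := @Fintype.ofFinite _ finite_irrCharacter
  have hec := eBar_comm hM hB
  choose F hF hFe using fun i => TwoChar.exists_extend hec S.u S.v S.eu S.uf S.fv S.ve S.sum_eq S.fe S.idem (h i) (htr i)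
  have hFd : ∀ i j, F i (z j) = if j = i then 1 else 0 := fun i j => by rw [hFe i _ (S.mem_C.1 (hz j)), hd]
  have hli : LinearIndependent (RF hM) fun i x => F i (el (id x : G)) := by
    rw [Fintype.linearIndependent_iff]
    intro c hc j
    have h0 : ∑ i, c i * F i (z j) = 0 := by
      simp only [TwoChar.apply_eq_sum (F _) (z j), Finset.mul_sum]
      rw [Finset.sum_comm]
      refine Finset.sum_eq_zero fun x _ => ?_
      have := congrFun hc x
      simp only [Finset.sum_apply, Pi.smul_apply, smul_eq_mul, Pi.zero_apply, id] at this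
      simp only [mul_left_comm (c _), ← Finset.mul_sum]
      rw [this, mul_zero]
    simpa [hFd] using h0
  have h1 := card_le_span hM hB id F hF hli
  rw [Fintype.card_fin] at h1
  refine h1.trans ?_
  have h2 := finrank_span_finset_le_card (R := ℂ)
    (Finset.image (fun χ : IrrCharacter G => (χ : G → ℂ)) (Finset.univ.filter fun χ : IrrCharacter G => χ ∈ B))
  rw [Set.finrank, Finset.coe_image, Finset.coe_filter] at h2
  refine le_trans (le_of_eq ?_) (h2.trans (Finset.card_image_le.trans (le_of_eq ?_)))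
  · simp only [Function.comp_id, Finset.mem_univ, true_and]
    rw [show ({x | x ∈ (Finset.univ : Finset (IrrCharacter G)) ∧ x ∈ B} : Set (IrrCharacter G)) = B from
      Set.ext fun x => ⟨fun h => h.2, fun h => ⟨Finset.mem_univ _, h⟩⟩]
  · rw [Nat.card_eq_fintype_card, Fintype.card_subtype]

include hM hB in
/-- The trace space of the corner is bounded by the members. -/
theorem finrank_C_le (S : Corner (RF hM) (eBar hM hB)) :
    Module.finrank (RF hM) S.C ≤ Module.finrank (RF hM) S.K + Nat.card B := by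
  classical
  haveI : Module.Finite (RF hM) (MonoidAlgebra (RF hM) G) := inferInstance
  have hKC : S.K ≤ S.C := S.K_le fun a ha b hb =>
    Submodule.sub_mem _ (Submodule.mem_inf.1 (S.J_mul_J (Submodule.mul_mem_mul ha hb))).1
      (Submodule.mem_inf.1 (S.J_mul_J (Submodule.mul_mem_mul hb ha))).1
  obtain ⟨W₀, hW₀⟩ := Submodule.exists_isCompl S.K
  set W := S.C ⊓ W₀ with hW
  have hCW : S.C ≤ S.K ⊔ W := by
    intro x hx
    obtain ⟨a, ha, b, hb, rfl⟩ := Submodule.mem_sup.1 (hW₀.sup_eq_top.ge (Submodule.mem_top (x := x)))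
    refine Submodule.mem_sup.2 ⟨a, ha, b, ⟨?_, hb⟩, rfl⟩
    simpa using S.C.sub_mem hx (hKC ha)
  refine (Submodule.finrank_mono hCW).trans ((Submodule.finrank_add_le_finrank_add_finrank _ _).trans
    (Nat.add_le_add_left ?_ _))
  set b := Module.finBasis (RF hM) W with hb
  set P0 := W₀.subtype ∘ₗ Submodule.projectionOnto W₀ S.K hW₀.symm with hP0
  have hP0K : ∀ x ∈ S.K, P0 x = 0 := fun x hx => by
    rw [hP0, LinearMap.comp_apply, Submodule.projectionOnto_apply_right hW₀.symm ⟨x, hx⟩, map_zero]
  have hP0W : ∀ x : W, P0 (x : MonoidAlgebra (RF hM) G) = x := fun x => by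
    rw [hP0, LinearMap.comp_apply, Submodule.projectionOnto_apply_left hW₀.symm ⟨x, x.2.2⟩]
    rfl
  choose h hh using fun i => LinearMap.exists_extend (b.coord i)
  refine trace_forms_le hM hB S (fun i => h i ∘ₗ P0) (fun j => (b j : MonoidAlgebra (RF hM) G)) (fun j => (b j).2.1)
    (fun i x y hx hy => ?_) fun i j => ?_
  · rw [← sub_eq_zero, ← map_sub, LinearMap.comp_apply,
      hP0K _ (S.mem_K (S.mem_C.2 hx) (S.mem_C.2 hy)), map_zero]
  · rw [LinearMap.comp_apply, hP0W]
    have := LinearMap.congr_fun (hh i) (b j)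
    simp only [LinearMap.comp_apply, Submodule.subtype_apply] at this
    rw [this, Module.Basis.coord_apply, Module.Basis.repr_self, Finsupp.single_apply]

include hM hB in
/-- A commutative corner bounds the order of the defect group by the number of members. -/
theorem pow_le_card (hl : blockRank p B = 1) (S : Corner (RF hM) (eBar hM hB))
    (hcomm : ∀ x, S.f * x * S.f = x → ∀ z, S.f * z * S.f = z → x * z = z * x) :
    p ^ blockDefect p B ≤ Nat.card B := by
  classical
  haveI : Fintype (IrrCharacter G) := @Fintype.ofFinite _ finite_irrCharacter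
  haveI : Module.Finite (RF hM) (MonoidAlgebra (RF hM) G) := inferInstance
  let e := eBar hM hB
  have he : e = eBar hM hB := rfl
  have hec := eBar_comm hM hB
  have hK0 : S.K = ⊥ := le_bot_iff.1 (S.K_le fun a ha b hb => by
    rw [Submodule.mem_bot, sub_eq_zero]
    exact hcomm a (S.mem_J.1 ha).1 b (S.mem_J.1 hb).1)
  have hC : Module.finrank (RF hM) S.C ≤ Nat.card B := by
    refine (finrank_C_le hM hB S).trans ?_
    rw [hK0, finrank_bot, zero_add]
  -- the members' degrees
  obtain ⟨φ, d, nn, hφ, hmult, hsum⟩ := rank_one_structure hM hB hl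
  have hdvd : ∀ χ ∈ B, S.n ∣ charDegree (χ : G → ℂ) := by
    intro χ hχ
    obtain ⟨σ, hσ, -⟩ := exists_rep hM hB hχ 1
    have := S.dvd_of_rep (V := Fin (charDegree (χ : G → ℂ)) → RF hM)
      (Matrix.toLinAlgEquiv'.toAlgHom.comp σ) (by simp [hσ])
    simpa using this
  -- the dimension
  let Q : Matrix G G (plc hM).toSubring := fun x z => eR hM hB (x * z⁻¹)
  have hQQ : Q * Q = Q := by
    ext x z
    rw [Matrix.mul_apply]
    refine congrArg Subtype.val (Eq.trans ?_ (eR_conv hM hB (x * z⁻¹)))
    conv_rhs => rw [← Equiv.sum_comp ((Equiv.inv G).trans (Equiv.mulLeft x))]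
    refine Finset.sum_congr rfl fun w _ => ?_
    simp [Q, mul_assoc]
  have hrank := rank_map_of_idem (plc hM).toSubring (res hM) (IsLocalRing.residue_surjective (R := plc hM)) Q hQQ
  have hcoords : (TwoChar.coords (k := RF hM) (G := G)).toLinearMap ∘ₗ LinearMap.mulLeft (RF hM) e
      = (Q.map (res hM)).mulVecLin ∘ₗ (TwoChar.coords (k := RF hM) (G := G)).toLinearMap := by
    refine LinearMap.ext fun z => funext fun x => ?_
    have h := TwoChar.apply_eq_sum ((LinearMap.proj x) ∘ₗ (TwoChar.coords (k := RF hM) (G := G)).toLinearMap ∘ₗ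
      LinearMap.mulLeft (RF hM) e) z
    simp only [LinearMap.comp_apply, LinearEquiv.coe_coe, LinearMap.proj_apply, LinearMap.mulLeft_apply,
      TwoChar.coords_apply, MonoidAlgebra.coeff_mul_single_apply, mul_one, he, coeff_eBar] at h
    rw [LinearMap.comp_apply, LinearMap.comp_apply, LinearEquiv.coe_coe, LinearMap.mulLeft_apply,
      TwoChar.coords_apply, he, h, Matrix.mulVecLin_apply, Matrix.mulVec, dotProduct]
    exact Finset.sum_congr rfl fun y _ => mul_comm _ _
  have hfr : (Q.map (res hM)).rank = Module.finrank (RF hM) (LinearMap.range (LinearMap.mulLeft (RF hM) e)) := by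
    rw [← LinearEquiv.finrank_map_eq (TwoChar.coords (k := RF hM) (G := G)), ← LinearMap.range_comp, hcoords,
      LinearMap.range_comp, LinearEquiv.range, Submodule.map_top]
    rfl
  have htr : ((Q.trace : (plc hM).toSubring) : ℂ) =
      ((∑ χ : IrrCharacter G, if χ ∈ B then charDegree (χ : G → ℂ) ^ 2 else 0 : ℕ) : ℂ) := by
    simp only [Matrix.trace, Matrix.diag, Q, mul_inv_cancel, Finset.sum_const, Finset.card_univ, nsmul_eq_mul,
      MulMemClass.coe_mul]
    show (((Fintype.card G : (plc hM).toSubring)) : ℂ) * blockCoeff B 1 = _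
    rw [blockCoeff_eq, SubringClass.coe_natCast, Nat.card_eq_fintype_card, ← mul_assoc,
      mul_inv_cancel₀ (Nat.cast_ne_zero.2 Fintype.card_ne_zero), one_mul, Nat.cast_sum]
    refine Finset.sum_congr rfl fun χ _ => ?_
    split_ifs
    · rw [apply_one (isCharacter_of_irr χ.2), Complex.conj_natCast]; push_cast; ring
    · simp
  rw [htr, hfr] at hrank
  have hdim := S.finrank_range_le hec
  rw [Nat.cast_inj.1 hrank] at hdim
  -- the arithmetic
  have h1 : ¬ p ∣ orderOf (1 : G) := by rw [orderOf_one]; exact hM.1.not_dvd_one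
  set z : ℤ := ∑ ψ : IrrCharacter G, if ψ ∈ B then nn ψ * (charDegree (ψ : G → ℂ) : ℤ) else 0 with hz
  have hφ1 : φ 1 = (z : ℂ) := by
    rw [hφ 1 h1, hz, Int.cast_sum]
    refine Finset.sum_congr rfl fun ψ _ => ?_
    split_ifs
    · rw [apply_one (isCharacter_of_irr ψ.2)]; push_cast; ring
    · simp
  have hdeg : ∀ χ ∈ B, charDegree (χ : G → ℂ) = d χ * z.natAbs := by
    intro χ hχ
    have h := hmult χ hχ 1 h1
    rw [apply_one (isCharacter_of_irr χ.2), hφ1] at h
    have h' : (charDegree (χ : G → ℂ) : ℤ) = (d χ : ℤ) * z := by exact_mod_cast h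
    have := congrArg Int.natAbs h'
    rwa [Int.natAbs_mul, Int.natAbs_natCast, Int.natAbs_natCast] at this
  obtain ⟨χ, hχ⟩ := IsPBlock.nonempty hM hB
  have hz0 : 0 < z.natAbs := Nat.pos_of_ne_zero fun h0 => by
    have := hdeg χ hχ
    rw [h0, mul_zero] at this
    exact (charDegree_pos χ.2).ne' this
  have hnz : S.n ≤ z.natAbs := by
    refine Nat.le_of_dvd hz0 (Int.natCast_dvd.1 ?_)
    rw [hz]
    refine Finset.dvd_sum fun ψ _ => ?_
    split_ifs with hψ
    · exact Dvd.dvd.mul_left (Int.natCast_dvd_natCast.2 (hdvd ψ hψ)) _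
    · exact dvd_zero _
  have hkey : z.natAbs ^ 2 * p ^ blockDefect p B ≤ z.natAbs ^ 2 * Module.finrank (RF hM) S.C := by
    refine le_trans (le_of_eq ?_) (hdim.trans (Nat.mul_le_mul_right _ (Nat.pow_le_pow_left hnz 2)))
    rw [← hsum, Finset.mul_sum]
    refine Finset.sum_congr rfl fun χ _ => ?_
    split_ifs with hχ
    · rw [hdeg χ hχ]; ring
    · rw [mul_zero]
  exact (Nat.le_of_mul_le_mul_left hkey (pow_pos hz0 2)).trans hC

include hM hB in
/-- The number of members bounds the order of the defect group. -/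
theorem card_le_card {P : Subgroup G} (hPD : IsDefectGroup p M B P) (hcyc : IsCyclic P) (hl : blockRank p B = 1) :
    Nat.card P ≤ Nat.card B := by
  classical
  haveI := Fact.mk hM.1
  haveI : Fintype (IrrCharacter G) := @Fintype.ofFinite _ finite_irrCharacter
  haveI : Fintype (G ⧸ P) := Fintype.ofFinite _
  haveI : Module.Finite (RF hM) (MonoidAlgebra (RF hM) G) := inferInstance
  have hcard := card_defectGroup hM hB hPD
  obtain ⟨u, hu⟩ : ∃ u : G, P = Subgroup.zpowers u := by
    obtain ⟨u, hu⟩ := hcyc.exists_generator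
    refine ⟨u, le_antisymm (fun x hx => ?_) (Subgroup.zpowers_le.2 u.2)⟩
    obtain ⟨i, hi⟩ := Subgroup.mem_zpowers_iff.1 (hu ⟨x, hx⟩)
    exact Subgroup.mem_zpowers_iff.2 ⟨i, congrArg Subtype.val hi⟩
  have huord : orderOf u = p ^ blockDefect p B := by rw [← Nat.card_zpowers, ← hu, hcard]
  obtain ⟨y, hy, Sy, hSy⟩ := id hPD
  let Cy := Subgroup.centralizer ({y} : Set G)
  have hPC : P ≤ Cy := by rw [hSy]; exact Subgroup.map_subtype_le _
  have hNp : ¬ p ∣ P.relIndex Cy := by
    have h : P.subgroupOf Cy = (Sy : Subgroup Cy) := by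
      rw [hSy]
      exact Subgroup.comap_map_eq_self_of_injective Cy.subtype_injective _
    rw [Subgroup.relIndex, h]
    exact Sy.not_dvd_index
  set e := eBar hM hB with he
  have he0 : e ≠ 0 := fun h => by
    have h1 := coeff_eBar hM hB y
    rw [← he, h, eq_comm] at h1
    exact hy.2.1 ((res_eq_zero hM (z := eR hM hB y) hy.1).1 (by simpa using h1))
  obtain ⟨S⟩ := exists_corner_of_rank_one hM hB hl he0
  -- the class sum
  set K : MonoidAlgebra (RF hM) G := ∑ x ∈ Finset.univ.filter (IsConj y), el x with hK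
  have hKc : ∀ z, Commute K z := by
    intro z
    rw [← TwoChar.sum_single' z]
    refine Commute.sum_right _ _ _ fun g _ => ?_
    rw [← mul_one (z.coeff g), ← smul_eq_mul, ← MonoidAlgebra.smul_single]
    refine Commute.smul_right ?_ _
    rw [Commute, SemiconjBy, hK, Finset.sum_mul, Finset.mul_sum]
    simp only [el_mul]
    refine Finset.sum_equiv (MulAut.conj g⁻¹).toEquiv (fun x => ?_) fun x _ => ?_
    · simp only [Finset.mem_filter, Finset.mem_univ, true_and, MulEquiv.toEquiv_eq_coe, EquivLike.coe_coe,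
        MulAut.conj_apply, inv_inv]
      exact ⟨fun h => h.trans (isConj_iff.2 ⟨g⁻¹, by group⟩), fun h => h.trans (isConj_iff.2 ⟨g, by group⟩)⟩
    · simp only [MulEquiv.toEquiv_eq_coe, EquivLike.coe_coe, MulAut.conj_apply, inv_inv]
      congr 1
      group
  have hec := eBar_comm hM hB
  have hei := eBar_idem hM hB
  have hKf : S.f * (K * S.f) * S.f = K * S.f := by
    rw [← mul_assoc, ← (hKc S.f).eq, mul_assoc K, S.idem, mul_assoc K, S.idem]
  obtain ⟨cK, hcK⟩ := S.dec _ hKf
  set t := e * K - cK • e with ht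
  have hte : e * t = t := by rw [ht, mul_sub, ← mul_assoc, mul_smul_comm, hei.eq]
  have htρ : S.ρ t = 0 := by
    have e1 : t = ∑ i, S.u i * (K * S.f - cK • S.f) * S.v i := by
      simp only [mul_sub, sub_mul, Finset.sum_sub_distrib, mul_smul_comm, smul_mul_assoc, ← Finset.smul_sum]
      rw [ht]
      congr 1
      · rw [(hec K).eq, show K * e = K * ∑ i, S.u i * S.v i from congrArg _ S.sum_eq.symm, Finset.mul_sum]
        refine Finset.sum_congr rfl fun i _ => ?_
        rw [← mul_assoc, ← mul_assoc (S.u i) K, ← (hKc (S.u i)).eq, mul_assoc K (S.u i) S.f, S.uf]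
      · refine congrArg _ (S.sum_eq.symm.trans (Finset.sum_congr rfl fun i _ => by rw [S.uf]))
    rw [e1, map_sum]
    exact Finset.sum_eq_zero fun i _ => by rw [map_mul, map_mul, hcK, mul_zero, zero_mul]
  have htN := S.ker_nil t hte htρ
  have hcK0 : cK ≠ 0 := by
    intro h0
    obtain ⟨χ, hχ⟩ := IsPBlock.nonempty hM hB
    obtain ⟨σ, hσ, hσK⟩ := exists_rep hM hB hχ y
    rw [ht, h0, zero_smul, sub_zero] at htN
    have h1 := congrArg σ htN
    rw [map_pow, map_mul, hσ, one_mul, hK, hσK, smul_pow, one_pow, map_zero] at h1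
    have hne : res hM ⟨centralChar (χ : G → ℂ) y, mem_plc hM (memLocalRing_centralChar hM χ y)⟩ ≠ 0 := fun h =>
      hy.2.2 χ hχ ((res_eq_zero hM (z := ⟨_, mem_plc hM (memLocalRing_centralChar hM χ y)⟩)
        (memLocalRing_centralChar hM χ y)).1 h)
    have hd0 := charDegree_pos χ.2
    have h2 := congrFun (congrFun h1 ⟨0, hd0⟩) ⟨0, hd0⟩
    simp only [Matrix.smul_apply, Matrix.one_apply_eq, smul_eq_mul, mul_one, Matrix.zero_apply] at h2
    exact pow_ne_zero _ hne h2
  set s := ∑ i ∈ Finset.range (S.N + 1), ((-cK⁻¹) • t) ^ i with hs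
  have hs1 : (1 - (-cK⁻¹) • t) * s = 1 := by rw [hs, mul_neg_geom_sum, smul_pow, htN, smul_zero, sub_zero]
  set w := e * (cK⁻¹ • s) with hw
  have hwc : ∀ z, Commute w z := fun z => by
    refine Commute.mul_left (hec z) (Commute.smul_left (Commute.sum_left _ _ _ fun i _ => ?_) _)
    refine Commute.pow_left (Commute.smul_left ?_ _) _
    exact Commute.sub_left (Commute.mul_left (hec z) (hKc z)) (Commute.smul_left (hec z) _)
  have hwK : w * K = e := by
    have h1 : e * (1 - (-cK⁻¹) • t) = cK⁻¹ • (e * K) := by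
      rw [neg_smul, sub_neg_eq_add, mul_add, mul_one, mul_smul_comm, hte, ht, smul_sub, smul_smul,
        inv_mul_cancel₀ hcK0, one_smul, add_sub_cancel]
    calc w * K = K * (e * (cK⁻¹ • s)) := ((hKc w).eq).symm
      _ = (cK⁻¹ • (e * K)) * s := by rw [← mul_assoc, mul_smul_comm, smul_mul_assoc, (hec K).eq]
      _ = e := by rw [← h1, mul_assoc, hs1, mul_one]
  have hN0 : ((P.relIndex Cy : ℕ) : RF hM) ≠ 0 := fun h => hNp ((CharP.cast_eq_zero_iff (RF hM) p _).1 h)
  set a := ((P.relIndex Cy : ℕ) : RF hM)⁻¹ • (w * el y) with ha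
  have hau : Commute a (el u) := by
    have huC : u ∈ Cy := hPC (hu ▸ Subgroup.mem_zpowers u)
    refine Commute.smul_left (Commute.mul_left (hwc _) ?_) _
    rw [Commute, SemiconjBy, el_mul, el_mul, Subgroup.mem_centralizer_singleton_iff.1 huC]
  have hasum : ∑ r : G ⧸ P, el r.out * a * el (r.out)⁻¹ = e := by
    have h1 : ∀ r : G ⧸ P, el r.out * a * el (r.out)⁻¹ =
        ((P.relIndex Cy : ℕ) : RF hM)⁻¹ • (w * el (r.out * y * r.out⁻¹)) := fun r => by
      rw [ha, mul_smul_comm, smul_mul_assoc, ← mul_assoc, ← (hwc _).eq, mul_assoc w, el_mul, mul_assoc w, el_mul]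
    rw [Finset.sum_congr rfl fun r _ => h1 r, ← Finset.smul_sum, ← Finset.mul_sum, sum_conj_el hPC, mul_smul_comm,
      ← hK, hwK, ← Nat.cast_smul_eq_nsmul (RF hM), smul_smul, inv_mul_cancel₀ hN0, one_smul]
  obtain ⟨g, hg, hgJ⟩ := exists_gen (eBar_comm hM hB) S hu huord hau hasum
  have hcomm := S.comm_of_gen hg hgJ
  rw [hcard]
  exact pow_le_card hM hB hl S hcomm

include hM hB in
/-- Rank one and at most four members. -/
theorem pow_le_card_of_small (hl : blockRank p B = 1) (hk : Nat.card B ≤ 4) :
    p ^ blockDefect p B ≤ Nat.card B := by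
  classical
  haveI : Module.Finite (RF hM) (MonoidAlgebra (RF hM) G) := inferInstance
  obtain ⟨y, hy⟩ := exists_defectClass hM hB
  have he0 : eBar hM hB ≠ 0 := fun h => by
    have h1 := coeff_eBar hM hB y
    rw [h, eq_comm] at h1
    exact hy.2.1 ((res_eq_zero hM (z := eR hM hB y) hy.1).1 (by simpa using h1))
  obtain ⟨S⟩ := exists_corner_of_rank_one hM hB hl he0
  let τ : Module.Dual (RF hM) (MonoidAlgebra (RF hM) G) :=
    (LinearMap.proj (1 : G)) ∘ₗ (TwoChar.coords (k := RF hM) (G := G)).toLinearMap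
  have hτ : ∀ z, τ z = z.coeff 1 := fun z => rfl
  have htr : ∀ x z, τ (x * z) = τ (z * x) := fun x z => by rw [hτ, hτ, TwoChar.coeff_mul_comm_one]
  refine pow_le_card hM hB hl S (S.comm_of_small τ htr (fun z hz h => ?_) ?_)
  · refine MonoidAlgebra.ext (Finsupp.ext fun g => ?_)
    have h1 : τ (z * (S.f * el g⁻¹ * S.f)) = 0 := h _ (by
      rw [← mul_assoc, ← mul_assoc, S.idem, mul_assoc (S.f * el g⁻¹), S.idem])
    rw [← mul_assoc, ← mul_assoc, S.mul_f hz, htr, ← mul_assoc, S.f_mul hz, hτ, MonoidAlgebra.coeff_mul_single_apply,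
      inv_inv, one_mul, mul_one] at h1
    simpa using h1
  · exact (finrank_C_le hM hB S).trans (Nat.add_le_add_left hk _)

end CfsgLib.Blocks.CyclicRankOne
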