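import Cfsg.Agent.BrauerFeit.FreeCore

/-!
# The number of members with a freely acting inertial quotient
-/

set_option autoImplicit false
set_option linter.unusedSectionVars false
set_option linter.style.haveILetI false

namespace CfsgLib.Blocks.CyclicRankOne

open Cfsg CfsgLib CfsgLib.Blocks CfsgLib.CharBasics CfsgLib.PairAlg CfsgLib.NilBlock CfsgLib.Star CfsgLib.BrauerFeit
open scoped ComplexConjugate

attribute [local instance] CfsgLib.Blocks.residueField CfsgLib.Blocks.residue_charP

universe u

variable {p : ℕ} [Fact p.Prime] {M : Ideal AlgInt} {G : Type u} [Group G] [Fintype G]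

noncomputable local instance instFintypeSubgroupCyclicRankOneCount (K : Subgroup G) : Fintype K := Fintype.ofFinite K

theorem card_eq_add (hM : IsPModular p M) {B : Set (IrrCharacter G)} {P : Subgroup G}
    {c : Set (IrrCharacter (Subgroup.centralizer (P : Set G)))} (hmax : IsMaximalBrauerPair p M B P c)
    (hB : IsPBlock M B) (hPD : IsDefectGroup p M B P)
    (hc : IsInducedBlock M (Subgroup.centralizer (P : Set G)) c B) (hab : ∀ x ∈ P, ∀ y ∈ P, x * y = y * x)
    (hfree : ∀ g ∈ stab P (bc hM P c), ∀ x ∈ P, x ≠ 1 → g * x * g⁻¹ = x → g ∈ Subgroup.centralizer (P : Set G)) :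
    (Nat.card B : ℂ) = blockRank p B + ((Nat.card P : ℂ) - 1) /
      ((Subgroup.centralizer (P : Set G)).relIndex (stab P (bc hM P c)) : ℂ) := by
  classical
  haveI : Fintype (IrrCharacter G) := @Fintype.ofFinite _ finite_irrCharacter
  haveI : ∀ x : G, Fintype (IrrCharacter (cen x)) := fun x => @Fintype.ofFinite _ finite_irrCharacter
  have hst : Stable hM P c (fun _ => (1 : ℂ)) := fun _ _ _ _ _ => rfl
  -- the product with the trivial function
  have hstar : ∀ χ ∈ B, star hM P c (fun _ => (1 : ℂ)) χ = (χ : G → ℂ) := by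
    intro χ hχ
    funext g
    obtain ⟨x, y, hxy, hcom, hx, hy, -, -⟩ := ZStar.exists_pPart (p := p) hM.1 g
    have hyC : y ∈ cen x := Subgroup.mem_centralizer_singleton_iff.2 hcom.eq.symm
    have hyo : ¬ p ∣ orderOf (⟨y, hyC⟩ : cen x) := by rwa [Subgroup.orderOf_mk]
    have h1 := star_mul_eq_sum hM P c (fun _ => (1 : ℂ)) χ hx ⟨y, hyC⟩ hyo
    have h2 := regular_eq_sum_secVal (p := p) (u := x) hM (isClassFunction (isCharacter_of_irr χ.2)) (⟨y, hyC⟩ : cen x)
    rw [if_neg hyo] at h2
    rw [← hxy]
    refine h1.trans (Eq.trans (Finset.sum_congr rfl fun b hb => ?_) h2.symm)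
    by_cases hi : IsInducedBlock M (cen x) b B
    · obtain ⟨g', -, hg'⟩ := exists_ev_eq hM hmax hst ((induced_iff_ofBlk hM hx (mem_blockFinset.1 hb) hB).1 hi)
      rw [hg', one_mul]
    · rw [secVal_eq_zero hM hx (mem_blockFinset.1 hb) hB hχ hi, mul_zero]
  -- the self-products
  have hself : ∀ χ : IrrCharacter G, classInner (χ : G → ℂ) (χ : G → ℂ) = 1 := fun χ => by
    simp [classInner_irr]
  set e := (Subgroup.centralizer (P : Set G)).relIndex (stab P (bc hM P c)) with he
  set P' := Finset.univ.filter (fun u : G => u ∈ P ∧ u ≠ 1) with hP'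
  have heach : ∀ χ ∈ B, (1 : ℂ) = classInner (pRegularPart p (χ : G → ℂ)) (χ : G → ℂ) +
      ((Nat.card P : ℂ) * (e : ℂ))⁻¹ * ∑ u ∈ P', NN hM hmax u (χ : G → ℂ) (χ : G → ℂ) := by
    intro χ hχ
    have h := classInner_star_eq hM hmax hB hab hfree hst hχ χ
    rw [hstar χ hχ, hself, one_mul] at h
    refine h.trans ?_
    simp only [one_mul]
    rfl
  have hreg : ∑ χ ∈ Finset.univ.filter (fun χ : IrrCharacter G => χ ∈ B),
      classInner (pRegularPart p (χ : G → ℂ)) (χ : G → ℂ) = (blockRank p B : ℂ) := by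
    have hG : (Nat.card G : ℂ) ≠ 0 := Nat.cast_ne_zero.2 Nat.card_pos.ne'
    refine mul_left_cancel₀ hG ?_
    rw [← sum_blockKernel_diag hM hB, Finset.mul_sum]
    simp only [classInner_eq, mul_inv_cancel_left₀ hG, blockKernel_eq, pRegularPart_apply]
    rw [Finset.sum_comm]
    refine Finset.sum_congr rfl fun y _ => ?_
    split_ifs with hy
    · simp
    · rfl
  have hsec : ∀ u ∈ P', ∑ χ ∈ Finset.univ.filter (fun χ : IrrCharacter G => χ ∈ B),
      NN hM hmax u (χ : G → ℂ) (χ : G → ℂ) = (Nat.card P : ℂ) := by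
    intro u hu
    obtain ⟨-, huP, hu1⟩ := Finset.mem_filter.1 hu
    have hup := exists_orderOf_eq_of_mem hmax.1.1.1 huP
    have hbP := (belb_spec hM hmax huP).2.1
    have hind := isInduced_belb hM hmax hB huP
    rw [Finset.sum_subset (Finset.subset_univ _) fun χ _ hχ => ?_]
    · have hinf : P ⊓ cen u = P :=
        inf_eq_left.2 fun z hz => Subgroup.mem_centralizer_singleton_iff.2 (hab z hz u huP)
      simp only [NN, hinf, KS_eq_sum_secVal u _ (isClassFunction (isCharacter_of_irr (Subtype.property _)))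
        (isClassFunction (isCharacter_of_irr (Subtype.property _)))]
      rw [← Finset.mul_sum, Finset.sum_comm]
      have hk := sum_blockKernel_diag (p := p) hM hbP
      rw [blockRank_belb hM hmax hPD hc huP hu1 hB hab hfree, Nat.cast_one, mul_one] at hk
      rw [Finset.sum_congr rfl fun y _ => show _ = (if p ∣ orderOf y then 0 else blockKernel (belb hM hmax u) y y) by
        split_ifs with hy
        · exact Finset.sum_eq_zero fun χ _ => by rw [secVal, if_pos hy, zero_mul]
        · exact sum_secVal_mul hM hup hbP hy hy, hk]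
      field_simp [Nat.cast_ne_zero.2 (Nat.card_pos (α := cen u)).ne']
    · rw [NN, KS_eq_sum_secVal u _ (isClassFunction (isCharacter_of_irr χ.2)) (isClassFunction (isCharacter_of_irr χ.2)),
        Finset.sum_eq_zero fun y _ => by
          rw [secVal_eq_zero_of_notMem' hM hup hind (fun h => hχ (Finset.mem_filter.2 ⟨Finset.mem_univ _, h⟩)), zero_mul],
        mul_zero]
  have hP1 : (P'.card : ℂ) = (Nat.card P : ℂ) - 1 := by
    have h : P' = ((Finset.univ : Finset P).map ⟨Subtype.val, Subtype.val_injective⟩).erase 1 := by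
      ext x; simp [hP', and_comm]
    rw [h, Finset.card_erase_of_mem (by simp), Finset.card_map, Finset.card_univ, Nat.card_eq_fintype_card,
      Nat.cast_sub Fintype.card_pos, Nat.cast_one]
  have hsum := Finset.sum_congr rfl (s₁ := Finset.univ.filter fun χ : IrrCharacter G => χ ∈ B)
    fun χ hχ => heach χ (Finset.mem_filter.1 hχ).2
  rw [Finset.sum_const, nsmul_eq_mul, mul_one, Finset.sum_add_distrib, hreg, ← Finset.mul_sum, Finset.sum_comm,
    Finset.sum_congr rfl hsec, Finset.sum_const, nsmul_eq_mul, hP1] at hsum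
  rw [Nat.card_eq_fintype_card, Fintype.card_subtype, hsum]
  congr 1
  have : (Nat.card P : ℂ) ≠ 0 := Nat.cast_ne_zero.2 Nat.card_pos.ne'
  have h0 : (e : ℂ) ≠ 0 := Nat.cast_ne_zero.2
    (Subgroup.index_ne_zero_of_finite (H := (Subgroup.centralizer (P : Set G)).subgroupOf (stab P (bc hM P c))))
  field_simp

end CfsgLib.Blocks.CyclicRankOne
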