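import Mathlib

/-!
# Nilpotent endomorphisms of bounded size are summands of a fixed one
-/

set_option autoImplicit false
set_option linter.unusedSectionVars false

namespace CfsgLib.Blocks.CyclicRankOne

open Polynomial Module
open scoped DirectSum

variable (k : Type) [Field k] (q D₀ : ℕ)

/-- The fixed space: sufficiently many copies of each cyclic piece. -/
abbrev Univ : Type := Fin D₀ → Π j : Fin (q + 1), k[X] ⧸ Ideal.span {(X : k[X]) ^ (j : ℕ)}

theorem finite_univ : Module.Finite k (Univ k q D₀) := by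
  haveI : ∀ j : Fin (q + 1), Module.Finite k (k[X] ⧸ Ideal.span {(X : k[X]) ^ (j : ℕ)}) :=
    fun j => (monic_X_pow _).finite_quotient
  infer_instance

/-- Multiplication by the variable. -/
noncomputable def shift : Univ k q D₀ →ₗ[k] Univ k q D₀ := Algebra.lsmul k k _ (X : k[X])

variable {k q D₀}

theorem exists_summand {V : Type*} [AddCommGroup V] [Module k V] [FiniteDimensional k V] (x : V →ₗ[k] V)
    (hx : x ^ q = 0) (hD : finrank k V ≤ D₀) :
    ∃ (ι : V →ₗ[k] Univ k q D₀) (π : Univ k q D₀ →ₗ[k] V), (∀ v, π (ι v) = v) ∧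
      (∀ v, ι (x v) = shift k q D₀ (ι v)) ∧ ∀ u, π (shift k q D₀ u) = x (π u) := by
  classical
  have htor : Module.IsTorsion' (AEval' x) (Submonoid.powers (X : k[X])) := by
    intro m
    obtain ⟨v, rfl⟩ := (AEval'.of x).surjective m
    refine ⟨⟨X ^ q, q, rfl⟩, ?_⟩
    show (X : k[X]) ^ q • AEval'.of x v = 0
    rw [AEval'.X_pow_smul_of, hx, zero_smul, map_zero]
  obtain ⟨d, e, ⟨φ⟩⟩ := Module.torsion_by_prime_power_decomposition irreducible_X htor
  set S := {i : Fin d // 0 < e i} with hS
  let one : S → V := fun i =>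
    (AEval'.of x).symm (φ.symm (DirectSum.lof k[X] _ _ (i : Fin d) (Submodule.Quotient.mk 1)))
  have hne : ∀ i : S, (Submodule.Quotient.mk 1 : k[X] ⧸ (k[X] ∙ (X : k[X]) ^ e (i : Fin d))) ≠ 0 := by
    intro i h
    rw [Submodule.Quotient.mk_eq_zero, Submodule.mem_span_singleton] at h
    obtain ⟨c, hc⟩ := h
    have hu : IsUnit ((X : k[X]) ^ e (i : Fin d)) := IsUnit.of_mul_eq_one c (by rwa [smul_eq_mul, mul_comm] at hc)
    exact not_isUnit_X ((isUnit_pow_iff i.2.ne').1 hu)
  have hone : LinearIndependent k one := by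
    rw [Fintype.linearIndependent_iff]
    intro c hc j
    have h := congrArg (fun v => DirectSum.component k[X] (Fin d) (fun i => k[X] ⧸ k[X] ∙ (X : k[X]) ^ e i)
      (j : Fin d) (φ (AEval'.of x v))) hc
    simp only [one, map_sum, map_zero, LinearEquiv.map_smul, LinearMap.map_smul_of_tower,
      LinearEquiv.apply_symm_apply] at h
    rw [Finset.sum_eq_single j] at h
    · simp only [← algebraMap_smul k[X] (c j), LinearEquiv.map_smul, map_smul, LinearEquiv.apply_symm_apply,
        DirectSum.component.lof_self] at h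
      rw [algebraMap_smul] at h
      exact (smul_eq_zero.1 h).resolve_right (hne j)
    · intro i _ hij
      simp only [← algebraMap_smul k[X] (c i), LinearEquiv.map_smul, map_smul, LinearEquiv.apply_symm_apply,
        DirectSum.component.of]
      rw [dif_neg (fun h => hij (Subtype.ext h)), smul_zero]
    · exact fun h => absurd (Finset.mem_univ _) h
  obtain ⟨σ⟩ : Nonempty (S ↪ Fin D₀) := Function.Embedding.nonempty_of_card_le (by
    rw [Fintype.card_fin]; exact hone.fintype_card_le_finrank.trans hD)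
  have hle : ∀ i : S, e (i : Fin d) < q + 1 := by
    intro i
    have h0 : (X : k[X]) ^ q • φ.symm (DirectSum.lof k[X] _ _ (i : Fin d) (Submodule.Quotient.mk 1)) = 0 := by
      obtain ⟨v, hv⟩ := (AEval'.of x).surjective (φ.symm (DirectSum.lof k[X] _ _ (i : Fin d) (Submodule.Quotient.mk 1)))
      rw [← hv, AEval'.X_pow_smul_of, hx, zero_smul, map_zero]
    rw [← map_smul, ← map_smul, LinearEquiv.map_eq_zero_iff] at h0
    have h1 := congrArg (DirectSum.component k[X] (Fin d) (fun i => k[X] ⧸ k[X] ∙ (X : k[X]) ^ e i) (i : Fin d)) h0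
    rw [DirectSum.component.lof_self, map_zero, ← Submodule.Quotient.mk_smul, Submodule.Quotient.mk_eq_zero,
      Submodule.mem_span_singleton] at h1
    obtain ⟨c, hc⟩ := h1
    exact Nat.lt_succ_of_le ((pow_dvd_pow_iff X_ne_zero not_isUnit_X).1
      ⟨c, by rw [smul_eq_mul, smul_eq_mul, mul_one, mul_comm] at hc; exact hc.symm⟩)
  let pos : S → Fin (q + 1) := fun i => ⟨e (i : Fin d), hle i⟩
  let into : (⨁ i : Fin d, k[X] ⧸ k[X] ∙ (X : k[X]) ^ e i) →ₗ[k[X]] Univ k q D₀ :=
    ∑ i : S, (LinearMap.single k[X] _ (σ i)) ∘ₗ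
      (LinearMap.single k[X] (fun j : Fin (q + 1) => k[X] ⧸ Ideal.span {(X : k[X]) ^ (j : ℕ)}) (pos i)) ∘ₗ
        (DirectSum.component k[X] (Fin d) (fun i => k[X] ⧸ k[X] ∙ (X : k[X]) ^ e i) (i : Fin d))
  let back : Univ k q D₀ →ₗ[k[X]] ⨁ i : Fin d, k[X] ⧸ k[X] ∙ (X : k[X]) ^ e i :=
    ∑ i : S, (DirectSum.lof k[X] (Fin d) (fun i => k[X] ⧸ k[X] ∙ (X : k[X]) ^ e i) (i : Fin d)) ∘ₗ
      (LinearMap.proj (φ := fun j : Fin (q + 1) => k[X] ⧸ Ideal.span {(X : k[X]) ^ (j : ℕ)}) (pos i)) ∘ₗ
        (LinearMap.proj (φ := fun _ : Fin D₀ => Π j : Fin (q + 1), k[X] ⧸ Ideal.span {(X : k[X]) ^ (j : ℕ)}) (σ i))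
  have hbi : ∀ w, back (into w) = w := by
    intro w
    refine DirectSum.ext_component k[X] fun i => ?_
    by_cases hi : 0 < e i
    · simp only [back, into, LinearMap.sum_apply, LinearMap.comp_apply, LinearMap.proj_apply, Finset.sum_apply,
        map_sum]
      rw [Finset.sum_eq_single (⟨i, hi⟩ : S)]
      · rw [Finset.sum_eq_single (⟨i, hi⟩ : S)]
        · simp only [LinearMap.coe_single, Pi.single_eq_same]
          exact DirectSum.component.lof_self k[X] _ _
        · intro j _ hj
          rw [DirectSum.component.of, dif_neg (fun h => hj (Subtype.ext h))]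
        · exact fun h => absurd (Finset.mem_univ _) h
      · intro j _ hj
        refine Finset.sum_eq_zero fun l _ => ?_
        by_cases hl : (l : Fin d) = i
        · obtain rfl : l = ⟨i, hi⟩ := Subtype.ext hl
          simp only [LinearMap.coe_single]
          rw [Pi.single_eq_of_ne (fun h => hj (σ.injective h).symm), Pi.zero_apply, map_zero, map_zero]
        · rw [DirectSum.component.of, dif_neg hl]
      · exact fun h => absurd (Finset.mem_univ _) h
    · haveI : Subsingleton (k[X] ⧸ k[X] ∙ (X : k[X]) ^ e i) := Submodule.Quotient.subsingleton_iff.2 (by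
        rw [show e i = 0 by omega, pow_zero]
        exact Ideal.span_singleton_one)
      exact Subsingleton.elim _ _
  refine ⟨((into ∘ₗ φ.toLinearMap).restrictScalars k) ∘ₗ (AEval'.of x).toLinearMap,
    (AEval'.of x).symm.toLinearMap ∘ₗ ((φ.symm.toLinearMap ∘ₗ back).restrictScalars k), fun v => ?_, fun v => ?_,
    fun u => ?_⟩
  · simp [hbi]
  · show into (φ (AEval'.of x (x v))) = (X : k[X]) • into (φ (AEval'.of x v))
    rw [← AEval'.X_smul_of, map_smul, map_smul]
  · show (AEval'.of x).symm (φ.symm (back ((X : k[X]) • u))) = x ((AEval'.of x).symm (φ.symm (back u)))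
    rw [map_smul, map_smul, AEval'.of_symm_X_smul]

end CfsgLib.Blocks.CyclicRankOne
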