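import Mathlib
import Cfsg.Agent.Blocks.CyclicRankOne.Corner
import Cfsg.Agent.Blocks.CyclicRankOne.Universal

/-!
# A summand projective relative to a cyclic group has a corner with a one-generated radical

Two independent elements modulo the square would give infinitely many independent quotients of the projective
module, all of them summands of modules induced from finitely many.
-/

set_option autoImplicit false
set_option linter.unusedSectionVars false
set_option linter.style.haveILetI false

namespace CfsgLib.Blocks.CyclicRankOne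

open Module

variable {k : Type} [Field k] {G : Type*} [Group G] [Fintype G]

/-- The element of the group algebra attached to a group element. -/
noncomputable abbrev el (g : G) : MonoidAlgebra k G := MonoidAlgebra.single g 1

theorem el_mul (g h : G) : (el g : MonoidAlgebra k G) * el h = el (g * h) := by
  rw [MonoidAlgebra.single_mul_single, one_mul]

theorem el_one : (el (1 : G) : MonoidAlgebra k G) = 1 := (MonoidAlgebra.one_def).symm

section Trace

variable {V W : Type*} [AddCommGroup V] [Module k V] [Module (MonoidAlgebra k G) V]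
  [IsScalarTower k (MonoidAlgebra k G) V] [AddCommGroup W] [Module k W] [Module (MonoidAlgebra k G) W]
  [IsScalarTower k (MonoidAlgebra k G) W] (D : Subgroup G) [Fintype (G ⧸ D)] (T : V →ₗ[k] W)

/-- The sum of the conjugates of a map over the cosets. -/
noncomputable def relTrace : V →ₗ[k] W :=
  ∑ r : G ⧸ D, Algebra.lsmul k k W (el r.out : MonoidAlgebra k G) ∘ₗ T ∘ₗ
    Algebra.lsmul k k V (el (r.out)⁻¹ : MonoidAlgebra k G)

variable {D T}

theorem relTrace_apply (v : V) :
    relTrace D T v = ∑ r : G ⧸ D, (el r.out : MonoidAlgebra k G) • T ((el (r.out)⁻¹ : MonoidAlgebra k G) • v) := by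
  simp [relTrace]

theorem relTrace_smul (hT : ∀ d ∈ D, ∀ v, T ((el d : MonoidAlgebra k G) • v) = (el d : MonoidAlgebra k G) • T v)
    (z : MonoidAlgebra k G) (v : V) : relTrace D T (z • v) = z • relTrace D T v := by
  induction z using MonoidAlgebra.induction_on with
  | of g =>
    rw [MonoidAlgebra.of_apply]
    change relTrace D T ((el g : MonoidAlgebra k G) • v) = (el g : MonoidAlgebra k G) • relTrace D T v
    rw [relTrace_apply, relTrace_apply, Finset.smul_sum, ← Equiv.sum_comp (MulAction.toPerm g)]
    refine Finset.sum_congr rfl fun r _ => ?_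
    simp only [MulAction.toPerm_apply]
    have hd : r.out⁻¹ * g⁻¹ * (g • r).out ∈ D := by
      have h : (QuotientGroup.mk (g * r.out) : G ⧸ D) = QuotientGroup.mk (g • r).out := by
        rw [QuotientGroup.out_eq']
        conv_rhs => rw [← QuotientGroup.out_eq' r]
        rfl
      have := QuotientGroup.eq.1 h
      rwa [mul_inv_rev] at this
    obtain ⟨d, hd', hgr⟩ : ∃ d ∈ D, (g • r).out = g * r.out * d :=
      ⟨_, hd, by group⟩
    rw [hgr, smul_smul, el_mul]
    rw [show (g * r.out * d)⁻¹ * g = d⁻¹ * r.out⁻¹ by group, ← el_mul d⁻¹, mul_smul, hT _ (D.inv_mem hd'), smul_smul,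
      el_mul, mul_inv_cancel_right, ← el_mul g, mul_smul]
  | add a b ha hb => rw [add_smul, map_add, ha, hb, add_smul]
  | smul c a ha => rw [smul_assoc, map_smul, ha, smul_assoc]

end Trace

/-- The restriction to a cyclic group of prime power order is a summand of the fixed space. -/
theorem exists_ops {p : ℕ} [Fact p.Prime] [CharP k p] {u : G} {m : ℕ} (hu : orderOf u = p ^ m) {N : Type*}
    [AddCommGroup N] [Module k N] [Module (MonoidAlgebra k G) N] [IsScalarTower k (MonoidAlgebra k G) N]
    [Module.Finite k N] {D₀ : ℕ} (hD : finrank k N ≤ D₀) :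
    ∃ (ι : N →ₗ[k] Univ k (p ^ m) D₀) (π : Univ k (p ^ m) D₀ →ₗ[k] N), (∀ v, π (ι v) = v) ∧
      (∀ v, ι ((el u : MonoidAlgebra k G) • v) = shift k _ _ (ι v) + ι v) ∧
      ∀ w, π (shift k _ _ w + w) = (el u : MonoidAlgebra k G) • π w := by
  let X : N →ₗ[k] N := Algebra.lsmul k k N ((el u : MonoidAlgebra k G) - 1)
  have hX : X ^ p ^ m = 0 := by
    haveI : CharP (MonoidAlgebra k G) p :=
      charP_of_injective_algebraMap (FaithfulSMul.algebraMap_injective k (MonoidAlgebra k G)) p
    simp only [X]
    rw [← map_pow, sub_pow_char_pow_of_commute p m (Commute.one_right (el u : MonoidAlgebra k G)),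
      MonoidAlgebra.single_pow, one_pow, one_pow, ← hu, pow_orderOf_eq_one, ← MonoidAlgebra.one_def, sub_self, map_zero]
  obtain ⟨ι, π, h1, h2, h3⟩ := exists_summand X hX hD
  have hXv : ∀ v, X v = (el u : MonoidAlgebra k G) • v - v := fun v => by
    simp only [X, Algebra.lsmul_coe, sub_smul, one_smul]
  refine ⟨ι, π, h1, fun v => ?_, fun w => ?_⟩
  · rw [← h2, hXv, map_sub, sub_add_cancel]
  · rw [map_add, h3, hXv, sub_add_cancel]

variable [IsAlgClosed k]

set_option maxHeartbeats 1000000 in
/-- The radical of the corner is generated by one element modulo its square. -/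
theorem exists_gen {e : MonoidAlgebra k G} (hc : ∀ z, Commute e z) (S : Corner k e) {p : ℕ} [Fact p.Prime] [CharP k p] {D : Subgroup G}
    [Fintype (G ⧸ D)] {u : G} (hD : D = Subgroup.zpowers u) {m : ℕ} (hu : orderOf u = p ^ m) {a : MonoidAlgebra k G}
    (ha : Commute a (el u)) (hsum : ∑ r : G ⧸ D, el r.out * a * el (r.out)⁻¹ = e) :
    ∃ g ∈ S.J, S.J ≤ Submodule.span k {g} ⊔ S.J * S.J := by
  classical
  haveI : Module.Finite k (MonoidAlgebra k G) := inferInstance
  set J2 := S.J * S.J with hJ2
  by_contra hcon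
  push Not at hcon
  obtain ⟨g, hg, hgI⟩ : ∃ g ∈ S.J, g ∉ J2 := by
    by_contra h
    push Not at h
    exact hcon 0 S.J.zero_mem (le_trans (show S.J ≤ J2 from h) le_sup_right)
  obtain ⟨g', hg', hgI'⟩ := SetLike.not_le_iff_exists.1 (hcon g hg)
  -- the two-sided parts of the corner
  let I : k → Submodule k (MonoidAlgebra k G) := fun t => Submodule.span k {g + t • g'} ⊔ J2
  have hIJ : ∀ t, I t ≤ S.J := fun t => sup_le
    ((Submodule.span_singleton_le_iff_mem _ _).2 (S.J.add_mem hg (S.J.smul_mem t hg'))) S.J_mul_J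
  have hI2 : ∀ t, ∀ z, S.f * z * S.f = z → ∀ c ∈ I t, z * c ∈ I t := by
    intro t z hz c hc
    obtain ⟨l, hl⟩ := S.dec' hz
    have hcJ := hIJ t hc
    have : z * c = l • c + (z - l • S.f) * c := by
      rw [sub_mul, smul_mul_assoc, S.f_mul (S.mem_J.1 hcJ).1, add_sub_cancel]
    rw [this]
    exact (I t).add_mem ((I t).smul_mem l hc) (Submodule.mem_sup_right (Submodule.mul_mem_mul hl hcJ))
  have key : ∀ s t c, s ≠ t → (g + t • g') * c ∈ I s → S.f * c * S.f = c → c ∈ S.J := by
    intro s t c hst hmem hc
    obtain ⟨l, hl⟩ := S.dec' hc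
    have hgt : g + t • g' ∈ S.J := S.J.add_mem hg (S.J.smul_mem t hg')
    have h2 : l • (g + t • g') ∈ I s := by
      have e1 : l • (g + t • g') = (g + t • g') * c - (g + t • g') * (c - l • S.f) := by
        rw [mul_sub, mul_smul_comm, S.mul_f (S.mem_J.1 hgt).1, sub_sub_cancel]
      rw [e1]
      exact (I s).sub_mem hmem (Submodule.mem_sup_right (Submodule.mul_mem_mul hgt hl))
    obtain ⟨y, hy, j, hj, hyj⟩ := Submodule.mem_sup.1 h2
    obtain ⟨r, rfl⟩ := Submodule.mem_span_singleton.1 hy
    have e2 : (l * t - r * s) • g' = (r - l) • g + j := by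
      linear_combination (norm := module) -(1 : k) • hyj
    by_cases hl0 : l = 0
    · rwa [hl0, zero_smul, sub_zero] at hl
    exfalso
    by_cases h3 : l * t - r * s = 0
    · rw [h3, zero_smul] at e2
      by_cases h4 : r - l = 0
      · rw [show r = l by linear_combination h4] at h3
        exact hst (mul_left_cancel₀ hl0 (by linear_combination -h3))
      · refine hgI ?_
        have : (r - l) • g ∈ J2 := by
          rw [show (r - l) • g = -j from eq_neg_of_add_eq_zero_left e2.symm]
          exact J2.neg_mem hj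
        have h5 := J2.smul_mem (r - l)⁻¹ this
        rwa [smul_smul, inv_mul_cancel₀ h4, one_smul] at h5
    · refine hgI' ?_
      have : (l * t - r * s) • g' ∈ Submodule.span k {g} ⊔ J2 := by
        rw [e2]
        exact Submodule.add_mem _ (Submodule.mem_sup_left (Submodule.smul_mem _ _ (Submodule.mem_span_singleton_self g)))
          (Submodule.mem_sup_right hj)
      have h5 := Submodule.smul_mem _ (l * t - r * s)⁻¹ this
      rwa [smul_smul, inv_mul_cancel₀ h3, one_smul] at h5
  -- the quotients
  obtain ⟨L, hL⟩ : ∃ L : k → Submodule (MonoidAlgebra k G) (MonoidAlgebra k G),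
      ∀ t x, x ∈ L t ↔ ∀ i, S.v i * x * S.f ∈ I t := ⟨fun t =>
    { carrier := {x | ∀ i, S.v i * x * S.f ∈ I t}
      add_mem' := fun {x y} hx hy i => by rw [mul_add, add_mul]; exact (I t).add_mem (hx i) (hy i)
      zero_mem' := fun i => by simp
      smul_mem' := fun z x hx i => by
        have e1 : S.v i * (z • x) * S.f = ∑ j, (S.v i * z * S.u j) * (S.v j * x * S.f) := by
          rw [smul_eq_mul]
          calc S.v i * (z * x) * S.f = S.v i * (e * z) * x * S.f := by rw [← mul_assoc (S.v i) e, S.ve, ← mul_assoc]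
            _ = S.v i * (z * e) * x * S.f := by rw [(hc z).eq]
            _ = _ := by
                rw [show z * e = z * ∑ j, S.u j * S.v j by rw [S.sum_eq]]
                simp only [Finset.mul_sum, Finset.sum_mul, mul_assoc]
        rw [e1]
        exact (I t).sum_mem fun j _ => hI2 t _ (S.cor z i j) _ (hx j) }, fun _ _ => Iff.rfl⟩
  have hLC : ∀ t c, S.f * c * S.f = c → (c ∈ L t ↔ c ∈ I t) := by
    intro t c hc'
    constructor
    · intro h
      have h' : ∀ i, S.v i * c * S.f ∈ I t := (hL t c).1 h
      have e1 : c = ∑ i, (S.f * S.u i) * (S.v i * c * S.f) := by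
        have : c = S.f * e * c := by rw [S.fe, S.f_mul hc']
        conv_lhs => rw [this, show S.f * e = S.f * ∑ i, S.u i * S.v i by rw [S.sum_eq], Finset.mul_sum, Finset.sum_mul]
        refine Finset.sum_congr rfl fun i _ => ?_
        rw [mul_assoc (S.v i) c, S.mul_f hc']
        simp only [mul_assoc]
      rw [e1]
      refine (I t).sum_mem fun i _ => hI2 t _ ?_ _ (h' i)
      rw [← mul_assoc, S.idem, mul_assoc, S.uf]
    · intro h
      refine (hL t c).2 fun i => ?_
      rw [mul_assoc, S.mul_f hc', show S.v i * c = (S.v i * S.f) * c by rw [mul_assoc, S.f_mul hc']]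
      refine hI2 t _ ?_ _ h
      rw [← mul_assoc, S.fv, mul_assoc, S.idem]
  have hLe : ∀ t x, e * x - x ∈ L t := by
    intro t x
    refine (hL t _).2 fun i => ?_
    rw [mul_sub, ← mul_assoc, S.ve, sub_self, zero_mul]
    exact (I t).zero_mem
  have hLf : ∀ t x, x * S.f - x ∈ L t := by
    intro t x
    refine (hL t _).2 fun i => ?_
    rw [mul_sub, ← mul_assoc, sub_mul, mul_assoc _ S.f, S.idem, sub_self]
    exact (I t).zero_mem
  -- the operation of the generator
  haveI : ∀ t, Module.Finite k (MonoidAlgebra k G ⧸ L t) := fun t =>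
    Module.Finite.of_surjective ((L t).mkQ.restrictScalars k) (Submodule.mkQ_surjective _)
  obtain ⟨D₀, hD₀⟩ : ∃ D₀, ∀ t, finrank k (MonoidAlgebra k G ⧸ L t) ≤ D₀ :=
    ⟨finrank k (MonoidAlgebra k G), fun t => LinearMap.finrank_le_finrank_of_surjective
      (f := (L t).mkQ.restrictScalars k) (Submodule.mkQ_surjective _)⟩
  choose ι π hπι hι' hπ' using fun t => exists_ops (N := MonoidAlgebra k G ⧸ L t) hu (hD₀ t)
  let T : ∀ s t, (MonoidAlgebra k G ⧸ L t) →ₗ[k] (MonoidAlgebra k G ⧸ L s) := fun s t =>
    π s ∘ₗ ι t ∘ₗ Algebra.lsmul k k (MonoidAlgebra k G ⧸ L t) a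
  have hT1 : ∀ s t v, T s t ((el u : MonoidAlgebra k G) • v) = (el u : MonoidAlgebra k G) • T s t v := by
    intro s t v
    simp only [T, LinearMap.comp_apply, Algebra.lsmul_coe]
    rw [smul_smul, ha.eq, ← smul_smul, hι', hπ']
  have hTD : ∀ s t, ∀ d ∈ D, ∀ v, T s t ((el d : MonoidAlgebra k G) • v) = (el d : MonoidAlgebra k G) • T s t v := by
    intro s t d hd v
    rw [hD, ← mem_powers_iff_mem_zpowers, Submonoid.mem_powers_iff] at hd
    obtain ⟨i, rfl⟩ := hd
    induction i generalizing v with
    | zero => simp [el_one]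
    | succ i ih => rw [pow_succ, ← el_mul, mul_smul, mul_smul, ih, hT1]
  let mm : ∀ t, MonoidAlgebra k G ⧸ L t := fun t => Submodule.Quotient.mk S.f
  haveI : Module.Finite k (Univ k (p ^ m) D₀) := finite_univ k _ _
  let w : k → (G ⧸ D) → Univ k (p ^ m) D₀ := fun t r => ι t ((a * el (r.out)⁻¹) • mm t)
  haveI : Module.Finite k ((G ⧸ D) → Univ k (p ^ m) D₀) := inferInstance
  have hli : LinearIndependent k w := by
    rw [linearIndependent_iff']
    intro F c hcs s hs
    have h1 : ∑ t ∈ F, c t • relTrace D (T s t) (mm t) = 0 := by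
      simp only [relTrace_apply, Finset.smul_sum]
      rw [Finset.sum_comm]
      refine Finset.sum_eq_zero fun r _ => ?_
      have h := congrArg (fun F' : (G ⧸ D) → Univ k (p ^ m) D₀ => (el r.out : MonoidAlgebra k G) • π s (F' r)) hcs
      simp only [Finset.sum_apply, Pi.smul_apply, map_sum, map_smul, Pi.zero_apply, map_zero, smul_zero,
        Finset.smul_sum] at h
      refine (Finset.sum_congr rfl fun t _ => ?_).trans h
      simp only [w, T, LinearMap.comp_apply, Algebra.lsmul_coe, smul_smul]
      exact (smul_comm (el r.out : MonoidAlgebra k G) (c t) _).symm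
    have hss : relTrace D (T s s) (mm s) = mm s := by
      rw [relTrace_apply]
      simp only [T, LinearMap.comp_apply, hπι, Algebra.lsmul_coe, smul_smul, ← Finset.sum_smul]
      rw [show (∑ r : G ⧸ D, el r.out * (a * el (r.out)⁻¹) : MonoidAlgebra k G) = e by
        rw [← hsum]; simp only [mul_assoc]]
      show e • (Submodule.Quotient.mk S.f : MonoidAlgebra k G ⧸ L s) = _
      rw [← Submodule.Quotient.mk_smul, smul_eq_mul, S.ef]
    have hst : ∀ t, s ≠ t → ∃ j ∈ S.J, relTrace D (T s t) (mm t) = Submodule.Quotient.mk j := by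
      intro t hne
      obtain ⟨x, hx⟩ := Submodule.Quotient.mk_surjective (L s) (relTrace D (T s t) (mm t))
      have hfix : (S.f : MonoidAlgebra k G) • relTrace D (T s t) (mm t) = relTrace D (T s t) (mm t) := by
        rw [← relTrace_smul (hTD s t)]
        congr 1
        show S.f • (Submodule.Quotient.mk S.f : MonoidAlgebra k G ⧸ L t) = _
        rw [← Submodule.Quotient.mk_smul, smul_eq_mul, S.idem]
      have hx' : (Submodule.Quotient.mk (S.f * x * S.f) : MonoidAlgebra k G ⧸ L s) = relTrace D (T s t) (mm t) := by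
        rw [(Submodule.Quotient.eq (L s)).2 (hLf s (S.f * x)), ← smul_eq_mul S.f x, Submodule.Quotient.mk_smul, hx,
          hfix]
      have hcx : S.f * (S.f * x * S.f) * S.f = S.f * x * S.f := by
        rw [← mul_assoc, ← mul_assoc, S.idem, mul_assoc (S.f * x), S.idem]
      refine ⟨S.f * x * S.f, key s t _ hne ?_ hcx, hx'.symm⟩
      have hgt : g + t • g' ∈ I t := Submodule.mem_sup_left (Submodule.mem_span_singleton_self _)
      have hgtJ := hIJ t hgt
      have hgc : S.f * ((g + t • g') * (S.f * x * S.f)) * S.f = (g + t • g') * (S.f * x * S.f) := by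
        rw [← mul_assoc, S.f_mul (S.mem_J.1 hgtJ).1, mul_assoc, S.mul_f hcx]
      rw [← hLC s _ hgc, ← Submodule.Quotient.mk_eq_zero (L s), ← smul_eq_mul (g + t • g'), Submodule.Quotient.mk_smul,
        hx', ← relTrace_smul (hTD s t)]
      have h0 : (g + t • g') • mm t = 0 := by
        show (g + t • g') • (Submodule.Quotient.mk S.f : MonoidAlgebra k G ⧸ L t) = 0
        rw [← Submodule.Quotient.mk_smul, smul_eq_mul, S.mul_f (S.mem_J.1 hgtJ).1, Submodule.Quotient.mk_eq_zero]
        exact (hLC t _ (S.mem_J.1 hgtJ).1).2 hgt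
      rw [h0, map_zero]
    choose j hjJ hj using fun t (h : s ≠ t) => hst t h
    set jj : MonoidAlgebra k G := ∑ t ∈ F, if h : s ≠ t then c t • j t h else 0 with hjj
    have hjjJ : jj ∈ S.J := S.J.sum_mem fun t _ => by
      split_ifs with h
      · exact S.J.smul_mem _ (hjJ t h)
      · exact S.J.zero_mem
    have h2 : (Submodule.Quotient.mk (c s • S.f + jj) : MonoidAlgebra k G ⧸ L s) = 0 := by
      refine Eq.trans ?_ h1
      rw [← Finset.add_sum_erase _ _ hs, hss, Submodule.Quotient.mk_add]
      congr 1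
      rw [hjj, ← Submodule.mkQ_apply, map_sum, ← Finset.add_sum_erase _ _ hs, dif_neg (not_not.2 rfl), map_zero,
        zero_add]
      refine Finset.sum_congr rfl fun t ht => ?_
      have hne : s ≠ t := (Finset.ne_of_mem_erase ht).symm
      rw [dif_pos hne, hj t hne, Submodule.mkQ_apply]
      rfl
    have hC : S.f * (c s • S.f + jj) * S.f = c s • S.f + jj := by
      rw [mul_add, add_mul, mul_smul_comm, smul_mul_assoc, S.idem, S.idem, (S.mem_J.1 hjjJ).1]
    rw [Submodule.Quotient.mk_eq_zero, hLC s _ hC] at h2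
    have h3 := S.J.sub_mem (hIJ s h2) hjjJ
    rw [add_sub_cancel_right] at h3
    by_contra hne
    exact S.f_not_mem_J (by simpa [smul_smul, inv_mul_cancel₀ hne] using S.J.smul_mem (c s)⁻¹ h3)
  haveI : Infinite k := inferInstance
  haveI := hli.finite
  exact not_finite k

end CfsgLib.Blocks.CyclicRankOne
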